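import Cfsg.Agent.Elusive10.Tools
import Cfsg.Agent.Elusive.OrthPlusTwo
import Cfsg.Agent.Elusive.FieldExtOrthMinus
import Cfsg.Agent.PrimeSO.Glue
import Cfsg.Agent.Forms.OmegaCrit

/-!
Elements of prime order of minus type orthogonal groups in odd characteristic: fixed spaces of prescribed
size, fixed vectors forced by the type, and square roots of minus one.
-/

set_option autoImplicit false
set_option linter.unusedSectionVars false

namespace Cfsg.Agent.Elusive10

open Module QuadraticMap Matrix Cfsg.Agent.Classical Cfsg.Agent.Forms Cfsg.Agent.Elusive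

variable {F : Type*} [Field F] [Fintype F]

theorem finrank_minus_space (m : ℕ) : finrank F ((Fin m ⊕ Fin m) ⊕ Fin 2 → F) = 2 * (m + 1) := by
  rw [finrank_fintype_fun_eq_card, Fintype.card_sum, Fintype.card_sum, Fintype.card_fin, Fintype.card_fin]; omega

theorem singular_le_minus {m : ℕ} {a b : F} (hab : BinaryAniso a b)
    (U : Submodule F ((Fin m ⊕ Fin m) ⊕ Fin 2 → F)) (hU : ∀ u ∈ U, minusQF m a b u = 0) : finrank F U ≤ m :=
  finrank_le_of_vanishes_quadFormMinus hab U fun u hu => by rw [← minusQF_apply]; exact hU u hu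

theorem minus_polar_nondegenerate {m : ℕ} {a b : F} (hab : BinaryAniso a b) :
    (polarBilin (minusQF m a b)).Nondegenerate :=
  PrimeSO.minusQF_polar_nondegenerate m hab

/-- No element without fixed vectors unless `i` is even and `2 d / i` is odd. -/
theorem exists_fixed_vector {r : ℕ} [Fact r.Prime] {p : ℕ} [Fact p.Prime] [CharP F p] (hrp : r ≠ p)
    (hr : ¬ r ∣ Fintype.card F) (hr2 : r ≠ 2) {m i A : ℕ} {a b : F} (hab : BinaryAniso a b)
    (hi : i = orderOf ((Fintype.card F : ℕ) : ZMod r)) (hA : 2 * (m + 1) = A * i) (hpar : Odd i ∨ Even A)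
    (g : OQ (minusQF m a b)) (hg : g ^ r = 1) : ∃ v, v ≠ 0 ∧ g.1 v = v := by
  by_contra hno
  push Not at hno
  set f : Module.End F ((Fin m ⊕ Fin m) ⊕ Fin 2 → F) := g.1.toLinearMap with hf
  have hfr : f ^ r = 1 := by rw [hf, ← OrthPlus.toLinearMap_pow, hg]; rfl
  have hker : LinearMap.ker (f - 1) = ⊥ := (Submodule.eq_bot_iff _).2 fun v hv => by
    by_contra hv0
    exact hno v hv0 (sub_eq_zero.1 (LinearMap.mem_ker.1 hv))
  have hrange : finrank F (LinearMap.range (f - 1)) = A * i := by
    have h := LinearMap.finrank_range_add_finrank_ker (f - 1)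
    rw [hker, finrank_bot, add_zero, finrank_minus_space, hA] at h
    exact h
  obtain ⟨-, ⟨Φ⟩⟩ := PrimeSO.exists_fac (F := F) (Fact.out : r.Prime) hr2 hrp hi
  obtain ⟨U, -, hU, hUd⟩ := OrthTS.exists_half_moving Φ (Q := minusQF m a b) (f := f) (minus_polar_nondegenerate hab)
    (fun v => g.2 v) hfr hr hr2 hi hrange hpar
  have := singular_le_minus hab U hU
  omega

/-- An element of the hyperbolic form joined with one of the elliptic form. -/
theorem exists_join {r k j : ℕ} {a b : F} (g₁ : OQ (plusQF k F)) (g₂ : OQ (minusQF j a b)) (h₁ : g₁ ^ r = 1)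
    (h₂ : g₂ ^ r = 1) :
    ∃ g : OQ (minusQF (k + j) a b), g ^ r = 1 ∧ ∀ v, g.1 v = v →
      g₁.1 ((PrimeSO.minusJoin k j).symm v).1 = ((PrimeSO.minusJoin k j).symm v).1 ∧
      g₂.1 ((PrimeSO.minusJoin k j).symm v).2 = ((PrimeSO.minusJoin k j).symm v).2 := by
  have hE : ∀ x, minusQF (k + j) a b (PrimeSO.minusJoin k j x) = plusQF k F x.1 + minusQF j a b x.2 := fun x => by
    rw [minusQF_apply, minusQF_apply, Cfsg.Agent.Classical.plusQF_apply, PrimeSO.minusJoin_spec]
  refine ⟨joinHom _ hE (g₁, g₂), by rw [← map_pow, Prod.pow_def, h₁, h₂]; exact map_one _, fun v hv => ?_⟩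
  obtain ⟨x, rfl⟩ := (PrimeSO.minusJoin (F := F) k j).surjective v
  rw [joinHom_apply] at hv
  have := Prod.ext_iff.1 ((PrimeSO.minusJoin k j).injective hv)
  rw [LinearEquiv.symm_apply_apply]
  exact this

theorem finrank_fixed_le {V U : Type*} [AddCommGroup V] [Module F V] [FiniteDimensional F V] [AddCommGroup U]
    [Module F U] [FiniteDimensional F U] (f : Module.End F V) (L : V →ₗ[F] U)
    (h : ∀ v, f v = v → L v = 0 → v = 0) : finrank F (LinearMap.ker (f - 1)) ≤ finrank F U := by
  refine LinearMap.finrank_le_finrank_of_injective (f := L ∘ₗ (LinearMap.ker (f - 1)).subtype) ?_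
  exact (injective_iff_map_eq_zero _).2 fun v hv =>
    Subtype.ext (h v (sub_eq_zero.1 (LinearMap.mem_ker.1 v.2)) hv)

/-- An element fixing at most `2 d % c` dimensions, unless `2 d % c = 0` and a vector is forced. -/
theorem exists_small_fixed {r : ℕ} [Fact r.Prime] (hr : ¬ r ∣ Fintype.card F)
    {m i c : ℕ} {a b : F} (hab : BinaryAniso a b) (hi : i = orderOf ((Fintype.card F : ℕ) : ZMod r))
    (hc : c = if Even i then i else 2 * i) (hk : 0 < 2 * (m + 1) % c ∨ (Even i ∧ Odd (2 * (m + 1) / i))) :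
    ∃ g : OQ (minusQF m a b), g ^ r = 1 ∧
      finrank F (LinearMap.ker ((g.1.toLinearMap : Module.End F _) - 1)) ≤ 2 * (m + 1) % c := by
  have hi0 : 0 < i := hi ▸ orderOf_pos_of_not_dvd hr
  obtain ⟨c', hc'⟩ : Even c := by rw [hc]; split_ifs with h; exacts [h, even_two_mul i]
  have hc0 : 0 < c := by rw [hc]; split_ifs <;> omega
  have hdm := Nat.div_add_mod (2 * (m + 1)) c
  set J := 2 * (m + 1) / c with hJdef
  clear_value J
  obtain ⟨k', hk'⟩ : Even (2 * (m + 1) % c) := by
    rw [Nat.even_iff, Nat.mod_mod_of_dvd _ (show 2 ∣ c by omega)]; omega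
  have hdk : m + 1 = c' * J + k' := by
    have : c * J = 2 * (c' * J) := by rw [hc']; ring
    omega
  by_cases hJ : Even i ∧ Odd J
  · obtain ⟨hiev, hJo⟩ := hJ
    rw [if_pos hiev] at hc
    obtain ⟨n, hn⟩ : ∃ n, c' * J = n + 1 :=
      Nat.exists_eq_add_one.2 (Nat.mul_pos (by omega) hJo.pos)
    obtain ⟨g₂, hg₂, hfix⟩ := Elusive25.exists_fpf_minus (m := n) hab
      (hn ▸ dvd_pow_add_one hr hi (hc.symm.trans hc') hJo)
    obtain rfl : m = k' + n := by omega
    obtain ⟨g, hg, hfx⟩ := exists_join (1 : OQ (plusQF k' F)) g₂ (one_pow r) hg₂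
    refine ⟨g, hg, (finrank_fixed_le _ (LinearMap.fst F _ _ ∘ₗ (PrimeSO.minusJoin k' n).symm.toLinearMap)
      fun v hv h0 => (PrimeSO.minusJoin (F := F) k' n).symm.injective ?_).trans ?_⟩
    · rw [map_zero]
      exact Prod.ext h0 (hfix _ (hfx v hv).2)
    · rw [OrthPlus.finrank_space]; omega
  · have hk0 : 0 < k' := by
      rcases hk with h | ⟨he, ho⟩
      · omega
      · exact absurd ⟨he, by rw [hJdef, hc, if_pos he]; exact ho⟩ hJ
    have hdvd : i ∣ c' * J := by
      rcases Nat.even_or_odd i with he | ho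
      · rw [if_pos he] at hc
        obtain ⟨t, ht⟩ : Even J := Nat.not_odd_iff_even.1 fun h => hJ ⟨he, h⟩
        exact ⟨t, by rw [← hc, hc', ht]; ring⟩
      · rw [if_neg (Nat.not_even_iff_odd.2 ho)] at hc
        exact Dvd.dvd.mul_right (dvd_of_eq (by omega)) J
    obtain ⟨g₁, hg₁, hfix⟩ : ∃ g₁ : OQ (plusQF (c' * J) F), g₁ ^ r = 1 ∧ ∀ v, g₁.1 v = v → v = 0 := by
      rcases Nat.eq_zero_or_pos (c' * J) with h | h
      · rw [h]
        exact ⟨1, one_pow r, fun v _ => Subsingleton.elim _ _⟩
      · exact OrthPlus.exists_fixed_free h hi hdvd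
    obtain ⟨n, rfl⟩ : ∃ n, k' = n + 1 := Nat.exists_eq_add_one.2 hk0
    obtain rfl : m = c' * J + n := by omega
    obtain ⟨g, hg, hfx⟩ := exists_join g₁ (1 : OQ (minusQF n a b)) hg₁ (one_pow r)
    refine ⟨g, hg, (finrank_fixed_le _ (LinearMap.snd F _ _ ∘ₗ (PrimeSO.minusJoin (c' * J) n).symm.toLinearMap)
      fun v hv h0 => (PrimeSO.minusJoin (F := F) (c' * J) n).symm.injective ?_).trans ?_⟩
    · rw [map_zero]
      exact Prod.ext (hfix _ (hfx v hv).1) h0
    · rw [finrank_minus_space]; omega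

/-- A square root of minus one in `Ω⁻` when `d` is odd and `q ≡ 7 (mod 8)`. -/
theorem exists_sq_neg_one (h2 : (2 : F) ≠ 0) (w : ℕ) {a b : F} (hab : BinaryAniso a b)
    (h8 : Fintype.card F % 8 = 7) :
    ∃ g ∈ commutator (OQ (minusQF (w + w) a b)), ∀ v, g.1 (g.1 v) = -v := by
  classical
  have hneg : ¬ IsSquare (-1 : F) := by rw [FiniteField.isSquare_neg_one_iff]; omega
  obtain ⟨t, ht⟩ : IsSquare (2 : F) := by rw [FiniteField.isSquare_two_iff]; omega
  have ht0 : t ≠ 0 := fun h => h2 (by rw [ht, h, mul_zero])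
  set s := t⁻¹
  have hs : 2 * s * s = 1 := by
    rw [ht, show t * t * s * s = (t * s) * (t * s) by ring, mul_inv_cancel₀ ht0, one_mul]
  -- the rotation of the anisotropic plane
  obtain ⟨D, hD⟩ : IsSquare (4 * b - a * a) := by
    have hns : ¬ IsSquare (a * a - 4 * b) := by
      rintro ⟨e, he⟩
      have := hab ((e - a) / 2) 1 (by field_simp; linear_combination -he)
      exact one_ne_zero this.2
    have := OrthGen.isSquare_mul_iff_same (F := F) (neg_ne_zero.2 one_ne_zero)
      (fun h0 => hns ⟨0, by rw [h0, mul_zero]⟩) (iff_of_false hneg hns)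
    rwa [neg_one_mul, neg_sub] at this
  have hD0 : D ≠ 0 := fun h => by
    rw [h, mul_zero] at hD
    have := hab (-a) 2 (by linear_combination hD)
    exact h2 this.2
  let M : (Fin 2 → F) →ₗ[F] (Fin 2 → F) :=
    { toFun := fun v => ![s * (v 0 + (-a * v 0 - 2 * b * v 1) / D), s * (v 1 + (2 * v 0 + a * v 1) / D)]
      map_add' := fun u v => by ext i; fin_cases i <;> simp <;> ring
      map_smul' := fun c v => by ext i; fin_cases i <;> simp <;> ring }
  have hMQ : ∀ v, binQF a b (M v) = binQF a b v := fun v => by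
    simp only [binQF_apply, M, LinearMap.coe_mk, AddHom.coe_mk, Matrix.cons_val_zero, Matrix.cons_val_one,
      Matrix.cons_val_fin_one]
    field_simp
    linear_combination (v 0 ^ 2 + a * v 0 * v 1 + b * v 1 ^ 2) * D ^ 2 * hs +
      (v 0 ^ 2 + a * v 0 * v 1 + b * v 1 ^ 2) * s ^ 2 * hD
  have hMinj : Function.Injective M := (injective_iff_map_eq_zero _).2 fun v hv =>
    anisotropic_binQF hab v (by rw [← hMQ, hv, map_zero])
  let rot : OQ (binQF a b) := ⟨LinearEquiv.ofBijective M ⟨hMinj, LinearMap.injective_iff_surjective.1 hMinj⟩, hMQ⟩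
  have hrot : ∀ v, rot.1 v = M v := fun v => rfl
  have hrot2 : ∀ v, rot.1 (rot.1 v) = ![(-a * v 0 - 2 * b * v 1) / D, (2 * v 0 + a * v 1) / D] := fun v => by
    ext i
    fin_cases i <;>
      simp only [hrot, M, LinearMap.coe_mk, AddHom.coe_mk, Matrix.cons_val_zero, Matrix.cons_val_one,
        Matrix.cons_val_fin_one, Fin.zero_eta, Fin.mk_one] <;> field_simp
    · linear_combination (D * (-a * v 0 - 2 * b * v 1)) * hs + (-(s ^ 2 * v 0)) * hD
    · linear_combination (D * (2 * v 0 + a * v 1)) * hs + (-(s ^ 2 * v 1)) * hD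
  have hrot4 : ∀ v, rot.1 (rot.1 (rot.1 (rot.1 v))) = -v := fun v => by
    rw [hrot2, hrot2]
    ext i
    fin_cases i <;>
      simp only [Matrix.cons_val_zero, Matrix.cons_val_one, Matrix.cons_val_fin_one, Pi.neg_apply, Fin.zero_eta,
        Fin.mk_one] <;> field_simp
    · linear_combination (-v 0) * hD
    · linear_combination (-v 1) * hD
  -- the hyperbolic part
  let R : Matrix (Fin 2) (Fin 2) F := !![s, -s; s, s]
  have hR4 : (R * R) * (R * R) = -1 := by
    have : R * R = !![0, -1; 1, 0] := by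
      rw [Matrix.mul_fin_two]
      ext i j
      fin_cases i <;> fin_cases j <;> simp <;> first | linear_combination hs | linear_combination -hs
    rw [this, Matrix.mul_fin_two, Matrix.one_fin_two]
    ext i j
    fin_cases i <;> fin_cases j <;> simp
  let Dm : Matrix (Fin 2) (Fin 2) F →+* Matrix (Fin (w + w)) (Fin (w + w)) F :=
    ((Matrix.reindexAlgEquiv F F (finProdFinEquiv.trans (finCongr (two_mul w)))).toRingEquiv.toRingHom).comp
      ((Matrix.blockDiagonalRingHom (Fin 2) (Fin w) F).comp (RingHom.pi fun _ => RingHom.id _))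
  set A := Dm R
  have hA4 : (A * A) * (A * A) = -1 := by rw [← map_mul, ← map_mul, hR4, map_neg, map_one]
  let A' : GL (Fin (w + w)) F := (IsUnit.of_mul_eq_one (-(A * (A * A))) (by rw [mul_neg, ← mul_assoc, hA4, neg_neg])).unit
  have hA' : ∀ v, (levi A').1 ((levi A').1 ((levi A').1 ((levi A').1 v))) = -v := fun v => by
    rw [← LinearEquiv.mul_apply, ← LinearEquiv.mul_apply, ← LinearEquiv.mul_apply, ← Subgroup.coe_mul,
      ← Subgroup.coe_mul, ← Subgroup.coe_mul, ← map_mul, ← map_mul, ← map_mul]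
    refine OrthPlus.levi_neg_one _ ?_ v
    rw [Units.val_mul, Units.val_mul, Units.val_mul, IsUnit.unit_spec, mul_assoc]
    exact hA4
  let E : ((Fin (w + w) ⊕ Fin (w + w) → F) × (Fin 2 → F)) ≃ₗ[F] ((Fin (w + w) ⊕ Fin (w + w)) ⊕ Fin 2 → F) :=
    (LinearEquiv.sumArrowLequivProdArrow _ _ F F).symm
  have hE : ∀ x, minusQF (w + w) a b (E x) = plusQF (w + w) F x.1 + binQF a b x.2 := fun x => by
    rw [minusQF_apply, Cfsg.Agent.Classical.plusQF_apply, binQF_apply, Cfsg.quadFormMinus, Cfsg.quadFormPlus]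
    have hl : ∀ i, E x (Sum.inl i) = x.1 i := fun i => rfl
    have hr : ∀ i, E x (Sum.inr i) = x.2 i := fun i => rfl
    simp only [hl, hr]
  set y := joinHom E hE (levi A', rot)
  refine ⟨y * y, Forms.mul_self_mem_commutator (FieldExtOrth.minus_nondeg h2 hab)
    (OrthGen.notExceptional_of_two_ne_zero h2) y, fun v => ?_⟩
  obtain ⟨x, rfl⟩ := E.surjective v
  simp only [Subgroup.coe_mul, LinearEquiv.mul_apply, y, joinHom_apply, hA', hrot4, ← map_neg]
  rfl

/-- No square root of minus one in `Ω⁻` when `d` is even or `q` is not `7 (mod 8)`. -/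
theorem no_sq_neg_one (h2 : (2 : F) ≠ 0) {m : ℕ} {a b : F} (hab : BinaryAniso a b)
    (h : Even (m + 1) ∨ Fintype.card F % 8 ≠ 7) {g : OQ (minusQF m a b)}
    (hg : g ∈ commutator (OQ (minusQF m a b))) : ¬ ∀ v, g.1 (g.1 v) = -v := by
  classical
  intro hgg
  set f : Module.End F ((Fin m ⊕ Fin m) ⊕ Fin 2 → F) := g.1.toLinearMap
  by_cases hι : IsSquare (-1 : F)
  · -- the eigenspaces are totally singular and fill the space
    obtain ⟨ι, hι⟩ := hι
    have hι0 : ι ≠ 0 := fun h0 => by rw [h0, mul_zero, neg_eq_zero] at hι; exact one_ne_zero hι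
    have hTS : ∀ α : F, α * α = -1 → ∀ v ∈ LinearMap.ker (f - α • 1), minusQF m a b v = 0 := fun α ha v hv => by
      rw [LinearMap.mem_ker, LinearMap.sub_apply, LinearMap.smul_apply, Module.End.one_apply, sub_eq_zero] at hv
      have h : minusQF m a b (α • v) = minusQF m a b v := by rw [← hv]; exact g.2 v
      rw [QuadraticMap.map_smul, ha, smul_eq_mul, neg_one_mul, neg_eq_iff_add_eq_zero, ← two_mul] at h
      exact (mul_eq_zero.1 h).resolve_left h2
    have h1 := singular_le_minus hab _ (hTS ι hι.symm)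
    have h3 := singular_le_minus hab _ (hTS (-ι) (by rw [neg_mul_neg, ← hι]))
    have hle : (⊤ : Submodule F ((Fin m ⊕ Fin m) ⊕ Fin 2 → F)) ≤
        LinearMap.ker (f - ι • 1) ⊔ LinearMap.ker (f - (-ι) • 1) := by
      intro v _
      have h2ι : (2 : F) * ι ≠ 0 := mul_ne_zero h2 hι0
      have hff : ∀ u, f (f u) = -u := hgg
      refine Submodule.mem_sup.2 ⟨(2 * ι)⁻¹ • (ι • v + f v), ?_, (2 * ι)⁻¹ • (ι • v - f v), ?_, ?_⟩
      · simp only [LinearMap.mem_ker, LinearMap.sub_apply, LinearMap.smul_apply, Module.End.one_apply,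
          map_smul, map_add, hff]
        match_scalars <;> field_simp
        all_goals first | ring1 | linear_combination hι | linear_combination -hι
      · simp only [LinearMap.mem_ker, LinearMap.sub_apply, LinearMap.smul_apply, Module.End.one_apply,
          map_smul, map_sub, hff]
        match_scalars <;> field_simp
        all_goals first | ring1 | linear_combination hι | linear_combination -hι
      · match_scalars <;> field_simp <;> ring
    have h4 := (Submodule.finrank_mono hle).trans (Submodule.finrank_add_le_finrank_add_finrank _ _)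
    rw [finrank_top, finrank_minus_space] at h4
    omega
  rcases Nat.even_or_odd (m + 1) with he | ho
  · -- an invariant totally singular subspace beyond the Witt index
    obtain ⟨k, hk⟩ := he
    let L₀ : (Fin m → F) →ₗ[F] ((Fin m ⊕ Fin m) ⊕ Fin 2 → F) :=
      { toFun := fun c => Sum.elim (Sum.elim c 0) 0
        map_add' := fun c c' => funext fun i => by rcases i with (i | i) | i <;> simp
        map_smul' := fun t c => funext fun i => by rcases i with (i | i) | i <;> simp }
    have hL₀d : finrank F (LinearMap.range L₀) = m := by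
      rw [LinearMap.finrank_range_of_inj fun c c' h => funext fun i => congrFun h (Sum.inl (Sum.inl i)),
        finrank_fin_fun]
    obtain ⟨W, -, hW, hWd⟩ := OrthTS.exists_complex_singular (Q := minusQF m a b) (f := f) h2 hι
      (minus_polar_nondegenerate hab) (fun v => g.2 v) hgg (L₀ := LinearMap.range L₀)
      (by rintro _ ⟨c, rfl⟩; simp [minusQF_apply, Cfsg.quadFormMinus, L₀]) k (by omega)
    have := singular_le_minus hab W hW
    omega
  · -- the spinor norm
    have h4 : Fintype.card F % 4 = 3 := by rw [FiniteField.isSquare_neg_one_iff] at hι; omega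
    have h8 : Fintype.card F % 8 ≠ 7 := h.resolve_left (Nat.not_even_iff_odd.2 ho)
    have h2s : ¬ IsSquare (2 : F) := by rw [FiniteField.isSquare_two_iff]; omega
    have hB : BNondeg (minusQF m a b) := FieldExtOrth.minus_nondeg h2 hab
    have hR := OrthGen.RQ_eq_top hB (OrthGen.notExceptional_of_two_ne_zero h2)
    have hker := Abelianization.commutator_subset_ker (OrthGen.sgnHom hB hR) hg
    rw [MonoidHom.mem_ker, sgnHom_complex h2 h2s hB hR (m + 1) ⊤ g (by rw [finrank_top, finrank_minus_space])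
      (fun u _ hu => hB u fun v => hu v trivial) (fun v _ => ⟨trivial, hgg v⟩)
      (fun v hv => by
        rw [hB v fun u => (polar_comm _ v u).trans (hv u trivial), map_zero]),
      Prod.ext_iff, Prod.pow_snd] at hker
    have := hker.2
    rw [ho.neg_one_pow] at this
    exact absurd this (by decide)

end Cfsg.Agent.Elusive10
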