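import Cfsg.Agent.Elusive10.Tools
import Cfsg.Agent.Elusive.OrthPlus
import Cfsg.Agent.OrthGen.Index

/-!
Elements of prime order of odd-dimensional orthogonal groups and nondegenerate subspaces of even dimension of
a given type.
-/

set_option autoImplicit false
set_option linter.unusedSectionVars false

namespace Cfsg.Agent.Elusive10

open Module QuadraticMap Cfsg.Agent.Classical Cfsg.Agent.Forms Cfsg.Agent.Elusive
open Cfsg.Geo (IsPlusTypeOn IsNondegenerateOn)

variable {F : Type*} [Field F] [Fintype F]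

section general

variable {κ : Type} [Fintype κ] [DecidableEq κ] {R : QuadraticForm F (κ → F)}

/-- The type is preserved by isometries of subspaces. -/
theorem plus_of_iso {U W : Submodule F (κ → F)} (T : U ≃ₗ[F] W)
    (hT : ∀ u : U, R (T u : κ → F) = R (u : κ → F)) (h : IsPlusTypeOn ⇑R U) : IsPlusTypeOn ⇑R W := by
  obtain ⟨X, hX, hX0, hXd⟩ := h
  let L : X →ₗ[F] (κ → F) := W.subtype ∘ₗ T.toLinearMap ∘ₗ Submodule.inclusion hX
  refine ⟨LinearMap.range L, ?_, ?_, ?_⟩
  · rintro _ ⟨x, rfl⟩; exact (T _).2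
  · rintro _ ⟨x, rfl⟩
    exact (hT _).trans (hX0 _ x.2)
  · rw [LinearMap.finrank_range_of_inj (show Function.Injective L from W.injective_subtype.comp (T.injective.comp (Submodule.inclusion_injective hX))),
      hXd, T.finrank_eq]

/-- Subspaces of a given even dimension and type in a space of odd dimension. -/
theorem exists_typed_sub (h2 : (2 : F) ≠ 0) {C : Submodule F (κ → F)} (hC : NonDegOn R.polarBilin C)
    (hCo : Odd (finrank F C)) {e : ℕ} (he0 : 0 < e) (hee : Even e) (he : e < finrank F C) (s : Prop) :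
    ∃ U ≤ C, NonDegOn R.polarBilin U ∧ finrank F U = e ∧ (IsPlusTypeOn ⇑R U ↔ s) := by
  classical
  obtain ⟨N, hN⟩ : ∃ N, finrank F C = N + 1 := ⟨finrank F C - 1, by omega⟩
  have hNe : Even N := by
    rw [hN, Nat.odd_add_one, Nat.not_odd_iff_even] at hCo; exact hCo
  -- the hyperplanes of both types
  have hperp : ∀ β : F, β ≠ 0 → ∃ P ≤ C, NonDegOn R.polarBilin P ∧ finrank F P = N ∧
      ∃ w ∈ C, polar R w w = β ∧ ∀ x ∈ P, polar R w x = 0 := by
    intro β hβ
    obtain ⟨w, hw, hwv⟩ := OrthInvolField.exists_value_on h2 hC (by rw [hN]; omega) ((2 : F)⁻¹ * β)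
    have hww : polar R w w = β := by rw [OrthInvolField.polar_self_eq_two, hwv, mul_inv_cancel_left₀ h2]
    have hw0 : ∀ i : Unit, polar R w w ≠ 0 := fun _ => hww ▸ hβ
    have ho : ∀ i j : Unit, i ≠ j → polar R w w = 0 := fun i j h => absurd (Subsingleton.elim i j) h
    set L := Submodule.span F (Set.range fun _ : Unit => w)
    have hL : finrank F L = 1 := by
      rw [finrank_span_eq_card (OrthInvolField.linearIndependent_of_orth ho hw0), Fintype.card_unit]
    have hLC : L ≤ C := Submodule.span_le.2 (Set.range_subset_iff.2 fun _ => hw)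
    obtain ⟨hsup, hdis, hP⟩ := Orth.nonDegOn_split OrthSubspace.isSymm hLC (OrthInvolField.nonDegOn_span ho hw0) hC
    refine ⟨C ⊓ LinearMap.BilinForm.orthogonal R.polarBilin L, inf_le_left, hP, ?_, w, hw, hww,
      fun x hx => hx.2 w (Submodule.subset_span ⟨(), rfl⟩)⟩
    have := finrank_eq_add_of_disjoint hsup hdis
    omega
  obtain ⟨α, hα⟩ := Forms25.exists_not_isSquare (F := F) h2
  have hα0 : α ≠ 0 := fun h => hα (h ▸ IsSquare.zero)
  obtain ⟨P₁, hP₁C, hP₁, hd₁, w₁, hw₁, hv₁, ho₁⟩ := hperp 1 one_ne_zero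
  obtain ⟨P₂, hP₂C, hP₂, hd₂, w₂, hw₂, hv₂, ho₂⟩ := hperp α hα0
  have hdiff : ¬ (IsPlusTypeOn ⇑R P₁ ↔ IsPlusTypeOn ⇑R P₂) := by
    intro hs
    obtain ⟨T, hT⟩ := OrthTypes.exists_iso hP₁ hP₂ (hd₁ ▸ hNe) (hd₁.trans hd₂.symm) hs
    obtain ⟨z, hz, hzo, hz0⟩ := OrthSubspace.exists_orth_family h2 hP₁
    let z' : Fin (finrank F P₁) → κ → F := fun i => T ⟨z i, hz i⟩
    have hpT : ∀ i j, polar R (z' i) (z' j) = polar R (z i) (z j) := fun i j => by
      have h1 := hT (⟨z i, hz i⟩ + ⟨z j, hz j⟩)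
      rw [map_add, Submodule.coe_add, Submodule.coe_add] at h1
      simp only [z', polar, h1, hT]
    have hsq := OrthSubspace.isSquare_prod_family (R := R) (W := C) (e := Sum.elim (fun _ : Unit => w₁) z)
      (e' := Sum.elim (fun _ : Unit => w₂) z')
      (by rintro (i | i); exacts [hw₁, hP₁C (hz i)])
      (by rintro (i | i); exacts [hw₂, hP₂C (T ⟨z i, hz i⟩).2])
      (by
        rintro (i | i) (j | j) h
        · exact absurd (congrArg Sum.inl (Subsingleton.elim i j)) h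
        · exact ho₁ _ (hz j)
        · exact (polar_comm R _ _).trans (ho₁ _ (hz i))
        · exact hzo i j fun h' => h (congrArg Sum.inr h'))
      (by
        rintro (i | i) (j | j) h
        · exact absurd (congrArg Sum.inl (Subsingleton.elim i j)) h
        · exact ho₂ _ (T ⟨z j, hz j⟩).2
        · exact (polar_comm R _ _).trans (ho₂ _ (T ⟨z i, hz i⟩).2)
        · exact (hpT i j).trans (hzo i j fun h' => h (congrArg Sum.inr h')))
      (by
        rintro (i | i)
        · exact hv₁.symm ▸ one_ne_zero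
        · exact hz0 i)
      (by
        rintro (i | i)
        · exact hv₂.symm ▸ hα0
        · show polar R (z' i) (z' i) ≠ 0
          rw [hpT]; exact hz0 i)
      (by simp; omega) (by simp; omega)
    rw [Fintype.prod_sum_type, Fintype.prod_sum_type] at hsq
    simp only [Sum.elim_inl, Sum.elim_inr, hpT, Finset.univ_unique, Finset.prod_singleton, hv₁, hv₂, one_mul] at hsq
    have hP : ∏ i, polar R (z i) (z i) ≠ 0 := Finset.prod_ne_zero_iff.2 fun i _ => hz0 i
    exact hα (Forms25.isSquare_of_isSquare_mul (mul_self_ne_zero.2 hP) ⟨_, rfl⟩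
      (by rwa [mul_assoc, mul_comm _ α]))
  obtain ⟨P, hPC, hP, hPd, hPs⟩ : ∃ P ≤ C, NonDegOn R.polarBilin P ∧ finrank F P = N ∧ (IsPlusTypeOn ⇑R P ↔ s) := by
    by_cases h : IsPlusTypeOn ⇑R P₁ ↔ s
    · exact ⟨P₁, hP₁C, hP₁, hd₁, h⟩
    · exact ⟨P₂, hP₂C, hP₂, hd₂, by tauto⟩
  rcases eq_or_lt_of_le (show e ≤ N by omega) with rfl | hlt
  · exact ⟨P, hPC, hP, hPd, hPs⟩
  · obtain ⟨k, hk⟩ := hee
    obtain ⟨n, rfl⟩ : ∃ n, k = n + 1 := ⟨k - 1, by omega⟩
    obtain ⟨U, hU, hUN, hUd, hUs⟩ := OrthTypes.exists_sub hP (hPd ▸ hNe) (n := n) (by omega) s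
    exact ⟨U, hU.trans hPC, hUN, hUd.trans (by omega), hUs⟩

/-- The type of an invariant nondegenerate subspace without fixed vectors. -/
theorem plus_moving {r : ℕ} [Fact r.Prime] {p : ℕ} [Fact p.Prime] [CharP F p] (hrp : r ≠ p)
    (hr : ¬ r ∣ Fintype.card F) (hr2 : r ≠ 2) {i A : ℕ} (hi : i = orderOf ((Fintype.card F : ℕ) : ZMod r))
    {f : Module.End F (κ → F)} (hfQ : ∀ v, R (f v) = R v) (hf : f ^ r = 1) {U : Submodule F (κ → F)}
    (hU : ∀ v ∈ U, f v ∈ U) (hN : NonDegOn R.polarBilin U) (hfree : ∀ v ∈ U, f v = v → v = 0)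
    (hA : finrank F U = A * i) : IsPlusTypeOn ⇑R U ↔ (Odd i ∨ Even A) := by
  obtain ⟨-, ⟨Φ⟩⟩ := PrimeSO.exists_fac (F := F) (Fact.out : r.Prime) hr2 hrp hi
  set Q' := R.comp U.subtype
  set f' : Module.End F U := f.restrict hU
  have hQ' : (polarBilin Q').Nondegenerate :=
    LinearMap.BilinForm.Nondegenerate.ofSeparatingLeft fun u hu => OrthSubspace.bNondeg_restrict hN u hu
  have hfk : ∀ (k : ℕ) (v : U), ((f' ^ k) v : κ → F) = (f ^ k) (v : κ → F) := by
    intro k
    induction k with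
    | zero => intro v; simp
    | succ k ih => intro v; rw [pow_succ', Module.End.mul_apply, pow_succ', Module.End.mul_apply, ← ih]; rfl
  have hf' : f' ^ r = 1 := LinearMap.ext fun v => Subtype.ext (by rw [hfk, hf]; rfl)
  have hker : LinearMap.ker (f' - 1) = ⊥ := (Submodule.eq_bot_iff _).2 fun v hv => Subtype.ext
    (hfree v v.2 (congrArg Subtype.val (sub_eq_zero.1 (LinearMap.mem_ker.1 hv) : f' v = v)))
  have hrange : LinearMap.range (f' - 1) = ⊤ :=
    LinearMap.range_eq_top.2 (LinearMap.injective_iff_surjective.1 (LinearMap.ker_eq_bot.1 hker))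
  have hd : finrank F (LinearMap.range (f' - 1)) = A * i := by rw [hrange, finrank_top, hA]
  constructor
  · rintro ⟨X, hX, hX0, hXd⟩
    refine (Nat.even_or_odd i).symm.imp_right fun hev => ?_
    refine OrthTS.even_of_half_moving (Q := Q') hQ' (fun v => hfQ v) hf' hr hr2 hi hev hd
      (U := X.comap U.subtype) (hrange.symm ▸ le_top) (fun v hv => hX0 _ hv) ?_
    rw [hrange, finrank_top, (Submodule.comapSubtypeEquivOfLe hX).finrank_eq]
    omega
  · intro hpar
    obtain ⟨X, -, hX0, hXd⟩ := OrthTS.exists_half_moving Φ (Q := Q') hQ' (fun v => hfQ v) hf' hr hr2 hi hd hpar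
    have h2 := two_mul_finrank_le (B := polarBilin Q') (le_top : X ≤ ⊤)
      (fun u _ hu => hQ'.1 u fun v => hu v trivial) (OrthTS.isoOn_of_singular hX0)
    rw [finrank_top] at h2
    rw [hrange, finrank_top] at hXd
    refine ⟨X.map U.subtype, Submodule.map_subtype_le U X, ?_, ?_⟩
    · rintro _ ⟨v, hv, rfl⟩; exact hX0 v hv
    · rw [← (Submodule.equivMapOfInjective U.subtype U.injective_subtype X).finrank_eq]
      omega

end general

variable {d : ℕ}

local notation "Idx" => Unit ⊕ (Fin d ⊕ Fin d)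

theorem finrank_odd_space : finrank F (Idx → F) = 2 * d + 1 := by
  rw [finrank_fintype_fun_eq_card]; simp; omega

theorem bNondeg_odd (h2 : (2 : F) ≠ 0) : BNondeg (oddQF d F) := (PrimeSO.oddQF_polar_nondegenerate h2 d).1

/-- The nondegenerate subspaces of dimension `m` and type `s`. -/
def IsTyped (s : Prop) (m : ℕ) (W : Submodule F (Idx → F)) : Prop :=
  finrank F W = m ∧ IsNondegenerateOn (polar ⇑(oddQF d F)) W ∧ (IsPlusTypeOn ⇑(oddQF d F) W ↔ s)

theorem exists_typed (h2 : (2 : F) ≠ 0) (s : Prop) {m : ℕ} (hm0 : 0 < m) (hme : Even m) (hmn : m ≤ 2 * d) :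
    ∃ W : Submodule F (Idx → F), IsTyped s m W := by
  have hd : finrank F (⊤ : Submodule F (Idx → F)) = 2 * d + 1 := by
    rw [finrank_top]; exact finrank_odd_space
  obtain ⟨W, -, hN, hWd, hs⟩ := exists_typed_sub (R := oddQF d F) h2 (C := ⊤)
    (fun u _ hu => bNondeg_odd h2 u fun v => hu v trivial) (by rw [hd]; exact odd_two_mul_add_one d)
    hm0 hme (by omega) s
  exact ⟨W, hWd, OrthTypes.nondeg_iff.2 hN, hs⟩

theorem isometric_typed {s : Prop} {m : ℕ} (hme : Even m) {W W₀ : Submodule F (Idx → F)}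
    (h : IsTyped s m W) (h₀ : IsTyped s m W₀) :
    ∃ T : W ≃ₗ[F] W₀, ∀ w : W, oddQF d F (T w : Idx → F) = oddQF d F (w : Idx → F) :=
  OrthTypes.exists_iso (OrthTypes.nondeg_iff.1 h.2.1) (OrthTypes.nondeg_iff.1 h₀.2.1) (h.1 ▸ hme)
    (h.1.trans h₀.1.symm) (h.2.2.trans h₀.2.2.symm)

/-- The divisibility of the number of members rules out small `m`. -/
theorem not_small_typed (h2 : (2 : F) ≠ 0) (s : Prop) {m : ℕ} (hm0 : 0 < m) (hme : Even m) (hmn : m ≤ 2 * d)
    {r : ℕ} [Fact r.Prime] (hr : ¬ r ∣ Fintype.card F) {i c : ℕ}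
    (hi : i = orderOf ((Fintype.card F : ℕ) : ZMod r)) (hc : c = if Even i then i else 2 * i)
    (hrΩ : r ∣ Nat.card {W : Submodule F (Idx → F) // IsTyped s m W}) :
    ¬ (m < c ∧ m < (2 * d + 1) % c) := by
  classical
  rintro ⟨hmc, hmk⟩
  obtain ⟨W₀, hW₀⟩ := exists_typed (F := F) (d := d) h2 s hm0 hme hmn
  set R := oddQF d F
  have : Finite (OQ R) := OrthPlus.finite_OQ R
  have hB : BNondeg R := bNondeg_odd h2
  have hWN := OrthTypes.nondeg_iff.1 hW₀.2.1
  let : MulAction (OQ R) (Submodule F (Idx → F)) :=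
    { smul := fun g W => W.map g.1.toLinearMap
      one_smul := fun W => W.map_id
      mul_smul := fun g h W => W.map_comp h.1.toLinearMap g.1.toLinearMap }
  have horb : ∀ W, W ∈ MulAction.orbit (OQ R) W₀ ↔ IsTyped s m W := by
    intro W
    constructor
    · rintro ⟨g, rfl⟩
      have hN : NonDegOn R.polarBilin (W₀.map g.1.toLinearMap) := by
        rintro _ ⟨w, hw, rfl⟩ h0
        have : w = 0 := hWN w hw fun y hy => (OQ_polar g w y).symm.trans (h0 _ ⟨y, hy, rfl⟩)
        rw [this, map_zero]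
      have hs : IsPlusTypeOn ⇑R (W₀.map g.1.toLinearMap) ↔ IsPlusTypeOn ⇑R W₀ :=
        ⟨plus_of_iso (g.1.submoduleMap W₀).symm (fun w => by
            conv_rhs => rw [← (g.1.submoduleMap W₀).apply_symm_apply w, LinearEquiv.submoduleMap_apply, OQ_map_app]),
          plus_of_iso (g.1.submoduleMap W₀) (fun w => by rw [LinearEquiv.submoduleMap_apply, OQ_map_app])⟩
      exact ⟨(LinearEquiv.finrank_map_eq g.1 W₀).trans hW₀.1, OrthTypes.nondeg_iff.2 hN, hs.trans hW₀.2.2⟩
    · intro hW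
      obtain ⟨T, hT⟩ := isometric_typed hme hW hW₀
      obtain ⟨g, hg⟩ := OrthSubspace.exists_isometry_map h2 hB (OrthTypes.nondeg_iff.1 hW.2.1) hWN T hT
      refine ⟨g⁻¹, ?_⟩
      show g⁻¹ • W₀ = W
      rw [inv_smul_eq_iff]; exact hg.symm
  set St := MulAction.stabilizer (OQ R) W₀
  have hcard : Nat.card {W : Submodule F (Idx → F) // IsTyped s m W} * Nat.card St = Nat.card (OQ R) := by
    rw [← Nat.card_congr (Equiv.subtypeEquivRight horb), Nat.card_congr (MulAction.orbitEquivQuotientStabilizer _ _),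
      ← Subgroup.index, Subgroup.index_mul_card]
  -- the orthogonal group of the complement
  set P := LinearMap.BilinForm.orthogonal R.polarBilin W₀
  have hcpl : IsCompl W₀ P := OrthTypes.isCompl_orth hWN
  let E := Submodule.prodEquivOfIsCompl W₀ P hcpl
  have hE : ∀ x : W₀ × P, R (E x) = R.comp W₀.subtype x.1 + R.comp P.subtype x.2 := fun x => by
    show R ((x.1 : Idx → F) + (x.2 : Idx → F)) = R (x.1 : Idx → F) + R (x.2 : Idx → F)
    rw [QuadraticMap.map_add R, show polar R (x.1 : Idx → F) (x.2 : Idx → F) = 0 from x.2.2 _ x.1.2, add_zero]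
  let φ₀ : OQ (R.comp P.subtype) →* OQ R := (joinHom E hE).comp (MonoidHom.inr _ _)
  have hφ : ∀ h x, (φ₀ h).1 (E x) = E (x.1, h.1 x.2) := fun h x => by
    show (joinHom E hE (1, h)).1 (E x) = _
    rw [joinHom_apply]; rfl
  have hφ₀ : Function.Injective φ₀ := fun g h hgh => Subtype.ext (LinearEquiv.ext fun y =>
    congrArg Prod.snd (E.injective ((hφ g (0, y)).symm.trans ((congrArg (fun k : OQ R => k.1 (E (0, y))) hgh).trans (hφ h (0, y))))))
  have hφSt : φ₀.range ≤ St := by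
    rintro _ ⟨h, rfl⟩
    refine MulAction.mem_stabilizer_iff.2 ?_
    show W₀.map (φ₀ h).1.toLinearMap = W₀
    refine Submodule.eq_of_le_of_finrank_eq ?_ (LinearEquiv.finrank_map_eq _ W₀)
    rintro _ ⟨x, hx, rfl⟩
    show (φ₀ h).1 x ∈ W₀
    have he : E ((⟨x, hx⟩ : W₀), (0 : P)) = x := add_zero x
    rw [← he, hφ]
    show x + (h.1 0 : Idx → F) ∈ W₀
    rw [map_zero, ZeroMemClass.coe_zero, add_zero]; exact hx
  obtain ⟨z, hz⟩ : Nat.card (OQ (R.comp P.subtype)) ∣ Nat.card St :=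
    (Nat.card_congr (MonoidHom.ofInjective hφ₀).toEquiv).symm ▸ Subgroup.card_dvd_of_le hφSt
  -- its order
  have hPd : finrank F P = 2 * d + 1 - m := by
    have h : finrank F W₀ + finrank F P = finrank F (Idx → F) := Submodule.finrank_add_eq_of_isCompl hcpl
    rw [hW₀.1, finrank_odd_space] at h
    omega
  have hPN : NonDegOn R.polarBilin P := OrthTypes.nonDegOn_orth hB hWN
  obtain ⟨e, hcase⟩ := exists_finite_witt_decomposition (R.comp P.subtype)
    (nonsingOn_top_of_nondegenerate (LinearMap.BilinForm.Nondegenerate.ofSeparatingLeft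
      fun u hu => OrthSubspace.bNondeg_restrict hPN u hu))
  rw [hPd] at hcase
  obtain ⟨m', hm'⟩ := hme
  rcases hcase with ⟨he, -⟩ | ⟨he, α, ha, f, hf⟩ | ⟨he, -⟩
  · omega
  swap
  · omega
  have hodd : Odd (Nat.card F) := by
    rw [Nat.card_eq_fintype_card, Nat.odd_iff]
    exact FiniteField.odd_card_of_char_ne_two fun h => h2 (by
      have := ringChar.charP F; rw [h] at this; exact CharTwo.two_eq_zero)
  have hcP : Nat.card (OQ (R.comp P.subtype)) = 2 * Fintype.card F ^ (e ^ 2) *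
      ∏ l ∈ Finset.range e, (Fintype.card F ^ (2 * (l + 1)) - 1) := by
    have hsub : OQ (α⁻¹ • R.comp P.subtype) = OQ (R.comp P.subtype) := by
      ext g
      simp [mem_OQ, ha]
    rw [← hsub, Nat.card_congr (OQCongr (Q := α⁻¹ • R.comp P.subtype) (f.trans (oddEquiv e)) (fun v => by
        rw [LinearEquiv.trans_apply, oddEquiv_spec, oddQF_apply]
        simp only [_root_.smul_apply, smul_eq_mul, hf v, ← mul_assoc, inv_mul_cancel₀ ha, one_mul])).toEquiv,
      card_OQ_odd hodd, Nat.card_eq_fintype_card]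
  rw [Nat.card_congr (OQCongr (Q := R) (R := hypExt d QuadraticMap.sq) (oddEquiv d) (oddEquiv_spec d)).toEquiv,
    card_OQ_odd hodd, Nat.card_eq_fintype_card (α := F), hz, hcP,
    ← Finset.prod_range_mul_prod_Ico _ (show e ≤ d by omega)] at hcard
  set q := Fintype.card F
  set A := ∏ l ∈ Finset.range e, (q ^ (2 * (l + 1)) - 1)
  set N := Nat.card {W : Submodule F (Idx → F) // IsTyped s m W}
  have hA : 0 < 2 * A := Nat.mul_pos two_pos (Finset.prod_pos fun l _ =>
    Nat.sub_pos_of_lt (Nat.one_lt_pow (by omega) Fintype.one_lt_card))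
  have heq : N * q ^ (e ^ 2) * z =
      q ^ (d ^ 2) * ∏ l ∈ Finset.Ico e d, (q ^ (2 * (l + 1)) - 1) :=
    Nat.eq_of_mul_eq_mul_left hA (by linear_combination hcard)
  have hdvd : r ∣ q ^ (d ^ 2) * ∏ l ∈ Finset.Ico e d, (q ^ (2 * (l + 1)) - 1) :=
    heq ▸ dvd_mul_of_dvd_left (dvd_mul_of_dvd_left hrΩ _) _
  have hrp : r.Prime := Fact.out
  rcases hrp.dvd_mul.1 hdvd with h | h
  · exact hr (hrp.dvd_of_dvd_pow h)
  obtain ⟨l, hl, hl'⟩ := (Prime.dvd_finsetProd_iff hrp.prime _).1 h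
  rw [Finset.mem_Ico] at hl
  rw [← ZMod.natCast_eq_zero_iff, Nat.cast_sub (Nat.one_le_pow _ _ Fintype.card_pos), Nat.cast_pow, Nat.cast_one,
    sub_eq_zero, ← orderOf_dvd_iff_pow_eq_one, ← hi] at hl'
  obtain ⟨t, ht⟩ : c ∣ 2 * (l + 1) := by
    rw [hc]
    split_ifs with he
    · exact hl'
    · exact Nat.mul_dvd_mul_left 2 ((Nat.Coprime.dvd_of_dvd_mul_left
        (Nat.coprime_two_right.2 (Nat.not_even_iff_odd.1 he)) hl'))
  have hdm := Nat.div_add_mod (2 * d + 1) c
  have h1 : c * ((2 * d + 1) / c) < c * t := by omega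
  have h3 : c * t < c * ((2 * d + 1) / c + 1) := by
    rw [Nat.mul_succ]
    have := Nat.mod_lt (2 * d + 1) (show 0 < c by omega)
    omega
  have := Nat.lt_of_mul_lt_mul_left h1
  have := Nat.lt_of_mul_lt_mul_left h3
  omega

/-- A member from part of an eigenspace and a nondegenerate invariant subspace. -/
theorem exists_fixed_typed (h2 : (2 : F) ≠ 0) {s : Prop} {m : ℕ} (hm0 : 0 < m) (hme : Even m) (hmn : m ≤ 2 * d)
    {f : Module.End F (Idx → F)} {C M : Submodule F (Idx → F)} (hC : NonDegOn (oddQF d F).polarBilin C)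
    (hM : NonDegOn (oddQF d F).polarBilin M) (ho : ∀ x ∈ C, ∀ y ∈ M, polar (oddQF d F) x y = 0) {e : ℕ}
    (he0 : 0 < e) (he : e < finrank F C) (hd : m = e + finrank F M)
    (hfC : ∃ a : F, ∀ v ∈ C, f v = a • v) (hfM : ∀ v ∈ M, f v ∈ M) :
    ∃ W, IsTyped s m W ∧ ∀ v ∈ W, f v ∈ W := by
  obtain ⟨W₀, hW₀⟩ := exists_typed (F := F) (d := d) h2 s hm0 hme hmn
  obtain ⟨C', hC', hd', hN', T, hT⟩ :=
    OrthSubspace.exists_member h2 hC hM ho (OrthTypes.nondeg_iff.1 hW₀.2.1) he0 he (hW₀.1.trans hd)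
  obtain ⟨a, ha⟩ := hfC
  refine ⟨C' ⊔ M, ⟨hd'.trans hW₀.1, OrthTypes.nondeg_iff.2 hN',
    ⟨fun h => hW₀.2.2.1 (plus_of_iso T hT h), fun h => plus_of_iso T.symm (fun w => by
      conv_rhs => rw [← T.apply_symm_apply w, hT]) (hW₀.2.2.2 h)⟩⟩, fun v hv => ?_⟩
  obtain ⟨x, hx, y, hy, rfl⟩ := Submodule.mem_sup.1 hv
  rw [map_add, ha x (hC' hx)]
  exact add_mem (Submodule.mem_sup_left (C'.smul_mem a hx)) (Submodule.mem_sup_right (hfM y hy))

/-- Elements of odd prime order fixing a member. -/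
theorem fix_odd_typed {p : ℕ} [Fact p.Prime] [CharP F p] (h2 : (2 : F) ≠ 0) (s : Prop) {m : ℕ} (hm0 : 0 < m)
    (hme : Even m) (hmn : m ≤ 2 * d) {r : ℕ} [Fact r.Prime] (hrp : r ≠ p) (hr : ¬ r ∣ Fintype.card F) (hr2 : r ≠ 2)
    {i c : ℕ} (hi : i = orderOf ((Fintype.card F : ℕ) : ZMod r)) (hc : c = if Even i then i else 2 * i)
    (hlt : m % c < (2 * d + 1) % c) (hpar : 0 < m % c ∨ (s ↔ (Odd i ∨ Even (m / c))))
    {g : OQ (oddQF d F)} (hg : g ^ r = 1) : ∃ W, IsTyped s m W ∧ ∀ v ∈ W, g.1 v ∈ W := by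
  set f : Module.End F (Idx → F) := g.1.toLinearMap with hf
  have hfr : f ^ r = 1 := by rw [hf, ← OrthPlus.toLinearMap_pow, hg]; rfl
  have hiso : ∀ u v, (oddQF d F).polarBilin (f u) (f v) = (oddQF d F).polarBilin u v := fun u v => OQ_polar g u v
  have htop : NonDegOn (oddQF d F).polarBilin ⊤ := fun u _ hu => bNondeg_odd h2 u fun v => hu v trivial
  obtain ⟨M, -, hfM, hMN, ho, hdis, -, hmult, j, hj, hMd⟩ := Orth.exists_moving_part
    (B := (oddQF d F).polarBilin) OrthSubspace.isSymm h2 hiso hfr hr hr2 (W := ⊤) (fun _ _ => trivial) htop hi hc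
  set C := (⊤ : Submodule F (Idx → F)) ⊓ LinearMap.ker (f - 1)
  have hCN : NonDegOn (oddQF d F).polarBilin C := Orth.nonDegOn_inf_ker hiso hfr hr (fun _ _ => trivial) htop
  rw [finrank_top, finrank_odd_space] at hj
  have hi0 : 0 < i := hi ▸ orderOf_pos_of_not_dvd hr
  have hc0 : 0 < c := by rw [hc]; split_ifs <;> omega
  have hk : (2 * d + 1) % c ≤ finrank F C := by
    rw [hj, Nat.add_mul_mod_self_right]; exact Nat.mod_le _ _
  have hmc := Nat.mod_add_div m c
  have hlc := Nat.mod_lt m hc0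
  have hfC : ∃ a : F, ∀ v ∈ C, f v = a • v :=
    ⟨1, fun v hv => by rw [one_smul]; exact sub_eq_zero.1 (LinearMap.mem_ker.1 hv.2)⟩
  by_cases hle : m / c ≤ j
  · obtain ⟨U, hUM, hfU, hUN, hUd⟩ := hmult (m / c) (by rw [hMd]; exact Nat.mul_le_mul_right c hle)
    rcases Nat.eq_zero_or_pos (m % c) with h0 | hpos
    · have hUm : finrank F U = m := by rw [hUd, mul_comm]; omega
      have hs := hpar.resolve_left (by omega)
      obtain ⟨A, hA, hAp⟩ : ∃ A, finrank F U = A * i ∧ ((Odd i ∨ Even A) ↔ (Odd i ∨ Even (m / c))) := by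
        rcases Nat.even_or_odd i with he | ho
        · rw [if_pos he] at hc
          exact ⟨m / c, by rw [hUd, hc], Iff.rfl⟩
        · rw [if_neg (Nat.not_even_iff_odd.2 ho)] at hc
          exact ⟨2 * (m / c), by rw [hUd, hc]; ring, iff_of_true (Or.inl ho) (Or.inl ho)⟩
      refine ⟨U, ⟨hUm, OrthTypes.nondeg_iff.2 hUN, ?_⟩, hfU⟩
      rw [plus_moving hrp hr hr2 hi (f := f) (fun v => g.2 v) hfr hfU hUN
        (fun v hv hfv => Submodule.disjoint_def.1 hdis v
          (by rw [LinearMap.mem_ker, LinearMap.sub_apply, Module.End.one_apply, hfv, sub_self]) (hUM hv)) hA, hAp]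
      exact hs.symm
    · exact exists_fixed_typed h2 hm0 hme hmn (f := f) hCN hUN (fun x hx y hy => ho x hx y (hUM hy)) hpos
        (by omega) (by rw [hUd, mul_comm]; omega) hfC hfU
  · have h1 : (j + 1) * c ≤ m / c * c := Nat.mul_le_mul_right c (by omega)
    rw [Nat.succ_mul, mul_comm (m / c)] at h1
    exact exists_fixed_typed h2 hm0 hme hmn (f := f) (M := M) (e := m - j * c) hCN hMN ho (by omega) (by omega)
      (by rw [hMd]; omega) hfC hfM

/-- An element of odd prime order fixing no member. -/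
theorem bad_odd_typed {p : ℕ} [Fact p.Prime] [CharP F p] (h2 : (2 : F) ≠ 0) (s : Prop) {m : ℕ} (hme : Even m)
    (hmn : m ≤ 2 * d) {r : ℕ} [Fact r.Prime] (hrp : r ≠ p) (hr : ¬ r ∣ Fintype.card F) (hr2 : r ≠ 2)
    {i c : ℕ} (hi : i = orderOf ((Fintype.card F : ℕ) : ZMod r)) (hc : c = if Even i then i else 2 * i)
    (hsmall : ¬ (m < c ∧ m < (2 * d + 1) % c))
    (hbad : ¬ (c ≤ m ∧ m % c < (2 * d + 1) % c ∧ (0 < m % c ∨ (s ↔ (Odd i ∨ Even (m / c)))))) :
    ∃ x : GL Idx F, x ∈ Cfsg.Geo.omegaGL ⇑(oddQF d F) ∧ orderOf x = r ∧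
      ∀ W, IsTyped s m W → ¬ W.map (Matrix.toLin' (x : Matrix Idx Idx F)) ≤ W := by
  classical
  have hrP := (Fact.out : r.Prime)
  obtain ⟨hi0, ⟨Φ⟩⟩ := PrimeSO.exists_fac (F := F) hrP hr2 hrp hi
  have hc0 : 0 < c := by rw [hc]; split_ifs <;> omega
  set k := (2 * d + 1) % c with hkdef
  have hkodd : k % 2 = 1 := by
    have : 2 ∣ c := by rw [hc]; split_ifs with h; exacts [even_iff_two_dvd.1 h, dvd_mul_right 2 i]
    rw [hkdef, Nat.mod_mod_of_dvd _ this]; omega
  have hklt : k < c := Nat.mod_lt _ hc0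
  have hlev : m % c % 2 = 0 := by
    rw [Nat.mod_mod_of_dvd _ (by rw [hc]; split_ifs with h; exacts [even_iff_two_dvd.1 h, dvd_mul_right 2 i])]
    exact Nat.even_iff.1 hme
  have hndiv := Nat.div_add_mod' (2 * d + 1) c
  set J := (2 * d + 1) / c with hJ
  have hJ0 : 0 < J := by
    refine Nat.div_pos ?_ hc0
    by_contra hlt
    have h1 : k = 2 * d + 1 := Nat.mod_eq_of_lt (by omega)
    exact hsmall ⟨by omega, by omega⟩
  obtain ⟨f₀⟩ : Nonempty Φ.s := by
    refine Fintype.card_pos_iff.1 (Nat.pos_of_ne_zero fun h0 => ?_)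
    have h := Φ.card_s
    rw [← Fintype.card_coe, h0, Nat.zero_mul] at h
    have := hrP.two_le
    omega
  let a : Φ.s → ℕ := fun j => (if j = f₀ then J else 0) + (if Odd i ∧ j = Φ.tau f₀ then J else 0)
  have hinv : ∀ j, a (Φ.tau j) = a j := by
    intro j
    simp only [a]
    rcases Nat.even_or_odd i with he | ho
    · simp [Φ.tau_even he]
    · simp only [ho, true_and, show Φ.tau j = f₀ ↔ j = Φ.tau f₀ from
        ⟨fun e => by rw [← e, Φ.tau_tau], fun e => by rw [e, Φ.tau_tau]⟩,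
        show Φ.tau j = Φ.tau f₀ ↔ j = f₀ from ⟨fun e => by simpa [Φ.tau_tau] using congrArg Φ.tau e, fun e => by rw [e]⟩]
      exact add_comm _ _
  have hsum : (∑ j, a j) * i = J * c := by
    simp only [a, Finset.sum_add_distrib]
    rcases Nat.even_or_odd i with he | ho
    · simp [Nat.not_odd_iff_even.2 he, hc, he]
    · simp [ho, hc, Nat.not_even_iff_odd.2 ho]
      ring
  obtain ⟨S, hS, hSQ, hSd⟩ := OrthTS.exists_element_odd (d := d) h2 hrP hr2 Φ a hinv (by rw [hsum]; omega)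
  have hC := OrthTS.finrank_ker_sub_one Φ hS a hSd
  rw [finrank_odd_space, hsum] at hC
  have hCk : finrank F (LinearMap.ker (S - 1)) = k := by omega
  have hS1 : S ≠ 1 := by
    rintro rfl
    rw [sub_self, LinearMap.ker_zero, finrank_top, finrank_odd_space] at hCk
    have : 0 < J * c := Nat.mul_pos hJ0 hc0
    omega
  obtain ⟨x, hx, hxo, hxS⟩ := OrthTS.exists_omega_of_isometry (bNondeg_odd h2)
    (OrthGen.notExceptional_of_two_ne_zero h2) hr2 hS hS1 hSQ
  refine ⟨x, hx, hxo, fun W hW hinv' => ?_⟩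
  rw [hxS] at hinv'
  have hSW : ∀ v ∈ W, S v ∈ W := fun v hv => hinv' ⟨v, hv, rfl⟩
  have hSp : ∀ u v, (oddQF d F).polarBilin (S u) (S v) = (oddQF d F).polarBilin u v :=
    fun u v => OrthTS.polar_map hSQ u v
  obtain ⟨M, hMW, hfM, hMN, -, hdis, hsup, -, j, hj, hMd⟩ := Orth.exists_moving_part
    (B := (oddQF d F).polarBilin) OrthSubspace.isSymm h2 hSp hS hr hr2 (W := W) hSW
    (OrthTypes.nondeg_iff.1 hW.2.1) hi hc
  rw [hW.1] at hj
  set E := W ⊓ LinearMap.ker (S - 1)
  have hE : finrank F E ≤ k := hCk ▸ Submodule.finrank_mono (inf_le_right : E ≤ _)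
  have hEm : finrank F E = m % c := by rw [hj, Nat.add_mul_mod_self_right, Nat.mod_eq_of_lt (by omega)]
  rcases Nat.lt_or_ge (m % c) k with hlk | hlk
  · have hcm : c ≤ m := not_lt.1 fun h => hsmall ⟨h, by rwa [Nat.mod_eq_of_lt h] at hlk⟩
    have hl0 : m % c = 0 := Nat.eq_zero_of_not_pos fun h => hbad ⟨hcm, hlk, Or.inl h⟩
    have hE0 : E = ⊥ := Submodule.finrank_eq_zero.1 (hEm.trans hl0)
    rw [hE0, bot_sup_eq] at hsup
    subst hsup
    have hjm : j = m / c := by
      rw [← hW.1, hMd, Nat.mul_div_cancel _ hc0]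
    refine hbad ⟨hcm, hlk, Or.inr ?_⟩
    rw [← hW.2.2]
    obtain ⟨A, hA, hAp⟩ : ∃ A, finrank F M = A * i ∧ ((Odd i ∨ Even A) ↔ (Odd i ∨ Even (m / c))) := by
      rcases Nat.even_or_odd i with he | ho
      · rw [if_pos he] at hc
        exact ⟨m / c, by rw [hMd, hjm, hc], Iff.rfl⟩
      · rw [if_neg (Nat.not_even_iff_odd.2 ho)] at hc
        exact ⟨2 * (m / c), by rw [hMd, hjm, hc]; ring, iff_of_true (Or.inl ho) (Or.inl ho)⟩
    rw [plus_moving hrp hr hr2 hi (f := S) hSQ hS hfM hMN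
      (fun v hv hfv => Submodule.disjoint_def.1 hdis v
        (by rw [LinearMap.mem_ker, LinearMap.sub_apply, Module.End.one_apply, hfv, sub_self]) hv) hA, hAp]
  · omega

/-- Involutions fix members. -/
theorem fix_two_typed (h2 : (2 : F) ≠ 0) (s : Prop) {m : ℕ} (hd : 3 ≤ d) (hm0 : 0 < m) (hme : Even m)
    (hmn : m ≤ 2 * d) {g : OQ (oddQF d F)} (hgg : ∀ v, g.1 (g.1 v) = v) :
    ∃ W, IsTyped s m W ∧ ∀ v ∈ W, g.1 v ∈ W := by
  set f : Module.End F (Idx → F) := g.1.toLinearMap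
  set Sn := LinearMap.ker (f - (-1 : F) • 1)
  set Sp := LinearMap.ker (f - (1 : F) • 1)
  have hmn' : ∀ {v}, v ∈ Sn ↔ g.1 v = -v := fun {v} => by
    rw [LinearMap.mem_ker, LinearMap.sub_apply, LinearMap.smul_apply, Module.End.one_apply, sub_eq_zero,
      neg_one_smul]; rfl
  have hmp : ∀ {v}, v ∈ Sp ↔ g.1 v = v := fun {v} => by
    rw [LinearMap.mem_ker, LinearMap.sub_apply, LinearMap.smul_apply, Module.End.one_apply, sub_eq_zero,
      one_smul]; rfl
  have horth : ∀ u ∈ Sn, ∀ v ∈ Sp, polar (oddQF d F) u v = 0 := fun u hu v hv => by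
    have h := OQ_polar g u v
    rw [hmn'.1 hu, hmp.1 hv, polar_neg_left] at h
    have : (2 : F) * polar (oddQF d F) u v = 0 := by linear_combination -h
    exact (mul_eq_zero.1 this).resolve_left h2
  have hdec : ∀ v, ∃ a ∈ Sn, ∃ b ∈ Sp, a + b = v := fun v => by
    refine ⟨(2 : F)⁻¹ • (v - g.1 v), hmn'.2 ?_, (2 : F)⁻¹ • (v + g.1 v), hmp.2 ?_, ?_⟩
    · rw [map_smul, map_sub, hgg, ← smul_neg, neg_sub]
    · rw [map_smul, map_add, hgg, add_comm]
    · rw [← smul_add, show v - g.1 v + (v + g.1 v) = (2 : F) • v by rw [two_smul]; abel, inv_smul_smul₀ h2]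
  have hB : BNondeg (oddQF d F) := bNondeg_odd h2
  have hNn : NonDegOn (oddQF d F).polarBilin Sn := fun u hu h => hB u fun v => by
    obtain ⟨a, ha, b, hb, rfl⟩ := hdec v
    rw [polar_add_right, horth u hu b hb, add_zero]; exact h a ha
  have hNp : NonDegOn (oddQF d F).polarBilin Sp := fun u hu h => hB u fun v => by
    obtain ⟨a, ha, b, hb, rfl⟩ := hdec v
    rw [polar_add_right, polar_comm _ u a, horth a ha u hu, zero_add]; exact h b hb
  have hsum : 2 * d + 1 ≤ finrank F Sn + finrank F Sp := by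
    have hle : (⊤ : Submodule F (Idx → F)) ≤ Sn ⊔ Sp := fun v _ => by
      obtain ⟨a, ha, b, hb, rfl⟩ := hdec v; exact Submodule.add_mem_sup ha hb
    have := (Submodule.finrank_mono hle).trans (Submodule.finrank_add_le_finrank_add_finrank _ _)
    rwa [finrank_top, finrank_odd_space] at this
  have key : ∀ {α α' : F} {S T : Submodule F (Idx → F)}, (∀ v ∈ S, g.1 v = α • v) → (∀ v ∈ T, g.1 v = α' • v) →
      NonDegOn (oddQF d F).polarBilin S → NonDegOn (oddQF d F).polarBilin T →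
      (∀ x ∈ S, ∀ y ∈ T, polar (oddQF d F) x y = 0) → 2 ≤ finrank F S →
      2 * d + 1 ≤ finrank F S + finrank F T → ∃ W, IsTyped s m W ∧ ∀ v ∈ W, g.1 v ∈ W := by
    intro α α' S T hS hT hSN hTN ho hS2 hST
    obtain ⟨e, e', he0, he, he', hem⟩ : ∃ e e', 0 < e ∧ e < finrank F S ∧ e' ≤ finrank F T ∧ m = e + e' := by
      by_cases hlt : m < finrank F S
      · exact ⟨m, 0, hm0, hlt, by omega, by omega⟩
      · exact ⟨finrank F S - 1, m - (finrank F S - 1), by omega, by omega, by omega, by omega⟩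
    obtain ⟨w, hw, hwo, hw0⟩ := OrthSubspace.exists_orth_family h2 hTN
    let w' : Fin e' → Idx → F := fun j => w (Fin.castLE he' j)
    have hw'o : ∀ i j, i ≠ j → polar (oddQF d F) (w' i) (w' j) = 0 := fun i j h =>
      hwo _ _ fun h' => h (Fin.castLE_injective he' h')
    have hle : Submodule.span F (Set.range w') ≤ T := Submodule.span_le.2 (Set.range_subset_iff.2 fun j => hw _)
    refine exists_fixed_typed h2 hm0 hme hmn (f := f) (M := Submodule.span F (Set.range w')) hSN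
      (OrthInvolField.nonDegOn_span hw'o fun j => hw0 _) (fun x hx y hy => ho x hx y (hle hy)) he0 he
      (by rw [finrank_span_eq_card (OrthInvolField.linearIndependent_of_orth hw'o fun j => hw0 _), Fintype.card_fin]
          exact hem) ⟨α, hS⟩ fun v hv => ?_
    show g.1 v ∈ _
    rw [hT v (hle hv)]; exact Submodule.smul_mem _ _ hv
  by_cases h : 2 ≤ finrank F Sp
  · exact key (α := 1) (α' := -1) (fun v hv => by rw [one_smul]; exact hmp.1 hv)
      (fun v hv => by rw [neg_one_smul]; exact hmn'.1 hv) hNp hNn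
      (fun x hx y hy => by rw [polar_comm]; exact horth y hy x hx) h (by omega)
  · exact key (α := -1) (α' := 1) (fun v hv => by rw [neg_one_smul]; exact hmn'.1 hv)
      (fun v hv => by rw [one_smul]; exact hmp.1 hv) hNn hNp horth (by omega) hsum

/-- An element of order `p` fixing no elliptic subspace. -/
theorem bad_unipotent_minus {p : ℕ} [Fact p.Prime] [CharP F p] (h2 : (2 : F) ≠ 0) {m : ℕ} (hd : 3 ≤ d)
    (hme : Even m) :
    ¬ ∀ x : GL Idx F, x ∈ Cfsg.Geo.omegaGL ⇑(oddQF d F) → orderOf x = p →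
      ∃ W : Submodule F (Idx → F), (finrank F W = m ∧ IsNondegenerateOn (polar ⇑(oddQF d F)) W ∧ ¬ IsPlusTypeOn ⇑(oddQF d F) W) ∧
        W.map (Matrix.toLin' (x : Matrix Idx Idx F)) ≤ W := by
  intro H
  have hp2 : p ≠ 2 := fun h => h2 (by
    have := CharP.cast_eq_zero F p
    rw [h] at this
    exact_mod_cast this)
  have hp3 : 3 ≤ p := by have := (Fact.out : p.Prime).two_le; omega
  obtain ⟨μ, hμs, hμmem, hμev, hμodd, hμbig, hμ⟩ : ∃ μ : Multiset ℕ, μ.sum = 2 * d + 1 ∧
      (∀ e ∈ μ, e = 1 ∨ e = 2 ∨ e = 3) ∧ Even (μ.count 2) ∧ (∃ e ∈ μ, Odd e) ∧ 2 ∈ μ ∧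
      μ.count 1 + μ.count 3 = 1 := by
    rcases Nat.even_or_odd d with he | ⟨k, rfl⟩
    · refine ⟨1 ::ₘ Multiset.replicate d 2, by simp; omega, fun e h => ?_, by simpa using he,
        ⟨1, by simp, by decide⟩, Multiset.mem_cons_of_mem (Multiset.mem_replicate.2 ⟨by omega, rfl⟩), by simp [Multiset.count_replicate]⟩
      simp [Multiset.mem_replicate] at h; omega
    · refine ⟨3 ::ₘ Multiset.replicate (2 * k) 2, by simp; omega, fun e h => ?_, by simp,
        ⟨3, by simp, by decide⟩, Multiset.mem_cons_of_mem (Multiset.mem_replicate.2 ⟨by omega, rfl⟩), by simp [Multiset.count_replicate]⟩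
      simp [Multiset.mem_replicate] at h; omega
  obtain ⟨ν, hν, hνs, hνe, W, hWP, htwo⟩ := Elusive25.exists_fixed_subpartition (p := p) h2 (bNondeg_odd (d := d) h2)
    (m := m) (P := fun W => ¬ IsPlusTypeOn ⇑(oddQF d F) W)
    (fun x hx hxp hns => H x hx (orderOf_eq_prime hxp fun h1 => hns 1 (by rw [h1, Units.val_one, one_smul]))) μ
    (fun e he => by rcases hμmem e he with rfl | rfl | rfl <;> omega)
    (fun e he => by
      by_cases h : e ∈ μ
      · rcases hμmem e h with rfl | rfl | rfl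
        · exact absurd he (by decide)
        · exact hμev
        · exact absurd he (by decide)
      · rw [Multiset.count_eq_zero.2 h]; exact Even.zero)
    (by rw [hμs]; simp; omega) (Or.inl hμodd) ⟨2, hμbig, one_lt_two⟩
  have hsum := Elusive25.sum_of_small (ν := ν) fun e he => hμmem e (Multiset.mem_of_le hν he)
  have c1 := Multiset.le_iff_count.1 hν 1
  have c3 := Multiset.le_iff_count.1 hν 3
  rw [Nat.even_iff] at hme
  refine hWP (htwo fun e he => ?_)
  rcases hμmem e (Multiset.mem_of_le hν he) with rfl | rfl | rfl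
  · have := Multiset.count_pos.2 he; omega
  · rfl
  · have := Multiset.count_pos.2 he; omega

/-- The criterion for types. -/
theorem iff_typed {p : ℕ} [Fact p.Prime] [CharP F p] (h2 : (2 : F) ≠ 0) (s : Prop) {m : ℕ} (hd : 3 ≤ d)
    (hm0 : 0 < m) (hme : Even m) (hmn : m ≤ 2 * d) {r : ℕ} [Fact r.Prime] (hrp : r ≠ p ∨ r = 2)
    (hrΩ : r ∣ Nat.card {W : Submodule F (Idx → F) // IsTyped s m W}) {i c : ℕ}
    (hi : i = orderOf ((Fintype.card F : ℕ) : ZMod r)) (hc : c = if Even i then i else 2 * i) :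
    (∀ x : GL Idx F, x ∈ Cfsg.Geo.omegaGL ⇑(oddQF d F) → orderOf x = r →
      ∃ W, IsTyped s m W ∧ W.map (Matrix.toLin' (x : Matrix Idx Idx F)) ≤ W) ↔
    (r = 2 ∨ (c ≤ m ∧ m % c < (2 * d + 1) % c ∧ (0 < m % c ∨ (s ↔ (Odd i ∨ Even (m / c)))))) := by
  have hr := (Fact.out : r.Prime)
  have hp2 : p ≠ 2 := fun h => h2 (by
    have := CharP.cast_eq_zero F p
    rw [h] at this
    exact_mod_cast this)
  have hrp' : r ≠ p := hrp.elim id fun h => h ▸ hp2.symm
  obtain ⟨e, -, hcard⟩ := FiniteField.card F p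
  have hrq : ¬ r ∣ Fintype.card F := fun h' =>
    hrp' ((Nat.prime_dvd_prime_iff_eq hr Fact.out).1 (hr.dvd_of_dvd_pow (hcard ▸ h')))
  constructor
  · intro h
    by_contra hno
    rw [not_or] at hno
    obtain ⟨x, hx, hxo, hxW⟩ := bad_odd_typed h2 s hme hmn hrp' hrq hno.1 hi hc
      (not_small_typed h2 s hm0 hme hmn hrq hi hc hrΩ) hno.2
    obtain ⟨W, hW, hWx⟩ := h x hx hxo
    exact hxW W hW hWx
  · rintro hR x ⟨y, -, rfl⟩ hxo
    set g : OQ (oddQF d F) := OrthGen.matEquiv (oddQF d F) y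
    have hxg : Elusive25.glOf (oddQF d F) g = (Cfsg.isometryGroup F ⇑(oddQF d F)).subtype y := by
      simp [Elusive25.glOf, g]
    rw [← hxg] at hxo ⊢
    have hmul := Elusive25.glOf_mulVec (oddQF d F) g
    have hgk : ∀ v, (g ^ r).1 v = v := fun v => by
      have := pow_orderOf_eq_one (Elusive25.glOf (oddQF d F) g)
      rw [hxo, ← map_pow] at this
      rw [← Elusive25.glOf_mulVec, this, Units.val_one, Matrix.one_mulVec]
    suffices ∃ W, IsTyped s m W ∧ ∀ v ∈ W, g.1 v ∈ W by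
      obtain ⟨W, hW, hinv⟩ := this
      refine ⟨W, hW, ?_⟩
      rintro _ ⟨v, hv, rfl⟩
      rw [Matrix.toLin'_apply, hmul]
      exact hinv v hv
    rcases eq_or_ne r 2 with rfl | hr2
    · exact fix_two_typed h2 s hd hm0 hme hmn fun v => by have := hgk v; rwa [pow_two] at this
    · obtain ⟨-, hlt, hpar⟩ := hR.resolve_left hr2
      exact fix_odd_typed h2 s hm0 hme hmn hrp' hrq hr2 hi hc hlt hpar (Subtype.ext (LinearEquiv.ext hgk))

end Cfsg.Agent.Elusive10
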