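import Cfsg.Agent.Elusive.OrthSubspace
import Cfsg.Agent.Elusive.OrthTypes
import Cfsg.Agent.Elusive.OrthPlusModels
import Cfsg.Agent.Elusive25.UnipCases
import Cfsg.Agent.OrthGen.Spinor
import Cfsg.Agent.Forms.Similarity

/-!
Tools for elements of prime order fixing nondegenerate subspaces: orthogonal sums of isometries, the
spinor norm of a complex structure, and the classes of subspaces fixed by a unipotent element with
blocks `3, 1, 2, ..., 2`.
-/

set_option autoImplicit false
set_option linter.unusedSectionVars false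

namespace Cfsg.Agent.Elusive10

open Module QuadraticMap Cfsg.Agent.Classical Cfsg.Agent.Forms Cfsg.Agent.Elusive

variable {F : Type*} [Field F]

/-- Orthogonal sum of isometries. -/
def joinHom {U V W : Type*} [AddCommGroup U] [Module F U] [AddCommGroup V] [Module F V]
    [AddCommGroup W] [Module F W] {Q₁ : QuadraticForm F U} {Q₂ : QuadraticForm F V} {Q : QuadraticForm F W}
    (E : (U × V) ≃ₗ[F] W) (hE : ∀ x, Q (E x) = Q₁ x.1 + Q₂ x.2) : OQ Q₁ × OQ Q₂ →* OQ Q where
  toFun p := ⟨E.symm ≪≫ₗ (p.1.1.prodCongr p.2.1) ≪≫ₗ E, fun w => by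
    obtain ⟨x, rfl⟩ := E.surjective w
    simp only [LinearEquiv.trans_apply, LinearEquiv.symm_apply_apply, LinearEquiv.prodCongr_apply]
    rw [hE, hE, p.1.2, p.2.2]⟩
  map_one' := Subtype.ext (LinearEquiv.ext fun w => E.apply_symm_apply w)
  map_mul' p p' := Subtype.ext (LinearEquiv.ext fun w => by simp)

theorem joinHom_apply {U V W : Type*} [AddCommGroup U] [Module F U] [AddCommGroup V] [Module F V]
    [AddCommGroup W] [Module F W] {Q₁ : QuadraticForm F U} {Q₂ : QuadraticForm F V} {Q : QuadraticForm F W}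
    (E : (U × V) ≃ₗ[F] W) (hE : ∀ x, Q (E x) = Q₁ x.1 + Q₂ x.2) (g₁ : OQ Q₁) (g₂ : OQ Q₂) (x : U × V) :
    (joinHom E hE (g₁, g₂)).1 (E x) = E (g₁.1 x.1, g₂.1 x.2) := by
  show E ((g₁.1.prodCongr g₂.1) (E.symm (E x))) = _
  rw [LinearEquiv.symm_apply_apply, LinearEquiv.prodCongr_apply]

variable [Fintype F]

theorem dvd_pow_add_one {r : ℕ} [Fact r.Prime] (hr : ¬ r ∣ Fintype.card F) {i i' J : ℕ}
    (hi : i = orderOf ((Fintype.card F : ℕ) : ZMod r)) (hi' : i = i' + i') (hJ : Odd J) :
    r ∣ Fintype.card F ^ (i' * J) + 1 := by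
  have hi0 : 0 < i := hi ▸ orderOf_pos_of_not_dvd hr
  set z : ZMod r := ((Fintype.card F : ℕ) : ZMod r)
  have hz : z ^ i = 1 := hi ▸ pow_orderOf_eq_one z
  have hzi : z ^ i' = -1 := by
    rcases mul_self_eq_one_iff.1 (show z ^ i' * z ^ i' = 1 by rw [← pow_add, ← hi', hz]) with h | h
    · exact absurd (Nat.le_of_dvd (by omega) (hi ▸ orderOf_dvd_of_pow_eq_one h)) (by omega)
    · exact h
  rw [← ZMod.natCast_eq_zero_iff, Nat.cast_add, Nat.cast_pow, pow_mul, hzi, hJ.neg_one_pow, Nat.cast_one,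
    neg_add_cancel]

section complex

variable {V : Type*} [AddCommGroup V] [Module F V] [FiniteDimensional F V] [Finite V] {Q : QuadraticForm F V}

/-- The spinor norm of a complex structure on a nondegenerate subspace, when `2` is not a square. -/
theorem sgnHom_complex (h2 : (2 : F) ≠ 0) (h2s : ¬ IsSquare (2 : F)) (hB : BNondeg Q) (hRQ : RQ Q = ⊤) :
    ∀ (n : ℕ) (S : Submodule F V) (g : OQ Q), finrank F S = 2 * n → NonDegOn Q.polarBilin S →
      (∀ v ∈ S, g.1 v ∈ S ∧ g.1 (g.1 v) = -v) → (∀ v, (∀ s ∈ S, polar Q s v = 0) → g.1 v = v) →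
      OrthGen.sgnHom hB hRQ g = ((1 : ℤˣ), (-1 : ℤˣ)) ^ n := by
  classical
  intro n
  induction n with
  | zero =>
    intro S g hd _ _ hfix
    rw [mul_zero, Submodule.finrank_eq_zero] at hd
    have : g = 1 := Subtype.ext (LinearEquiv.ext fun v => hfix v fun s hs => by
      rw [hd, Submodule.mem_bot] at hs; rw [hs, polar_zero_left])
    rw [this, map_one, pow_zero]
  | succ n ih =>
    intro S g hd hS hJ hfix
    -- a nonisotropic vector
    obtain ⟨w, hw, -, hw0⟩ := OrthSubspace.exists_orth_family h2 hS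
    set e := w ⟨0, by omega⟩
    have heS : e ∈ S := hw _
    have he : Q e ≠ 0 := fun h => hw0 ⟨0, by omega⟩ (by rw [OrthInvolField.polar_self_eq_two, h, mul_zero])
    set f := g.1 e with hf
    have hfS : f ∈ S := (hJ e heS).1
    have hgf : g.1 f = -e := (hJ e heS).2
    have hQf : Q f = Q e := OQ_map_app g e
    have hef : polar Q e f = 0 := by
      have h := OQ_polar g e f
      rw [← hf, hgf, polar_neg_right, polar_comm] at h
      have : (2 : F) * polar Q e f = 0 := by linear_combination -h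
      exact (mul_eq_zero.1 this).resolve_left h2
    have hQd : Q (e - f) = 2 * Q e := by
      rw [sub_eq_add_neg, QuadraticMap.map_add Q, QuadraticMap.map_neg, polar_neg_right, hef, hQf]; ring
    have hd0 : Q (e - f) ≠ 0 := by rw [hQd]; exact mul_ne_zero h2 he
    have hf0 : Q f ≠ 0 := by rwa [hQf]
    set h : OQ Q := reflQ Q (e - f) hd0 * reflQ Q f hf0
    have hho : ∀ v, polar Q e v = 0 → polar Q f v = 0 → h.1 v = v := fun v h1 h3 => by
      show (reflQ Q (e - f) hd0).1 ((reflQ Q f hf0).1 v) = v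
      rw [OrthGen.reflQ_fix Q hf0 h3, OrthGen.reflQ_fix Q hd0 (by rw [polar_sub_left, h1, h3, sub_zero])]
    have hrefl : (reflQ Q (e - f) hd0).1 e = f := OrthGen.refl_sub_apply (x := e) (y := f) hQf.symm hd0
    have he' : h.1 e = f := by
      show (reflQ Q (e - f) hd0).1 ((reflQ Q f hf0).1 e) = f
      rw [OrthGen.reflQ_fix Q hf0 (by rw [polar_comm]; exact hef), hrefl]
    have hf' : h.1 f = -e := by
      show (reflQ Q (e - f) hd0).1 ((reflQ Q f hf0).1 f) = -e
      rw [OrthGen.reflQ_self Q hf0, map_neg, neg_inj]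
      have := OrthGen.refl_sub_apply (x := f) (y := e) hQf
        (by rwa [← neg_sub e f, QuadraticMap.map_neg])
      rw [← OrthGen.reflQ_congr Q (show -(e - f) = f - e from neg_sub e f)
        (by rwa [QuadraticMap.map_neg]) (by rwa [← neg_sub e f, QuadraticMap.map_neg]),
        OrthGen.reflQ_neg Q hd0 (by rwa [QuadraticMap.map_neg])] at this
      exact this
    -- the plane
    let pr : Fin 2 → V := ![e, f]
    have hpro : ∀ i j, i ≠ j → polar Q (pr i) (pr j) = 0 := by
      intro i j hij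
      fin_cases i <;> fin_cases j <;> first | exact absurd rfl hij | skip
      · exact hef
      · exact (polar_comm Q f e).trans hef
    have hpr0 : ∀ i, polar Q (pr i) (pr i) ≠ 0 := by
      intro i; rw [OrthInvolField.polar_self_eq_two]; fin_cases i
      · exact mul_ne_zero h2 he
      · exact mul_ne_zero h2 hf0
    set P := Submodule.span F (Set.range pr)
    have hPS : P ≤ S := Submodule.span_le.2 (by rintro _ ⟨i, rfl⟩; fin_cases i <;> assumption)
    have heP : e ∈ P := Submodule.subset_span ⟨0, rfl⟩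
    have hfP : f ∈ P := Submodule.subset_span ⟨1, rfl⟩
    obtain ⟨hsup, hdis, hTN⟩ := Orth.nonDegOn_split OrthSubspace.isSymm hPS
      (OrthInvolField.nonDegOn_span hpro hpr0) hS
    set T := S ⊓ LinearMap.BilinForm.orthogonal Q.polarBilin P
    have hTo : ∀ t ∈ T, polar Q e t = 0 ∧ polar Q f t = 0 := fun t ht => ⟨ht.2 e heP, ht.2 f hfP⟩
    have hTd : finrank F T = 2 * n := by
      have h1 := finrank_eq_add_of_disjoint hsup hdis
      have h3 : finrank F P = 2 := by
        rw [finrank_span_eq_card (OrthInvolField.linearIndependent_of_orth hpro hpr0), Fintype.card_fin]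
      omega
    have hgT : ∀ t ∈ T, g.1 t ∈ T := fun t ht => by
      refine ⟨(hJ t ht.1).1, fun p hp => ?_⟩
      induction hp using Submodule.span_induction with
      | mem x hx =>
        obtain ⟨i, rfl⟩ := hx
        show polar Q (pr i) (g.1 t) = 0
        fin_cases i
        · show polar Q e (g.1 t) = 0
          rw [show e = -(g.1 f) by rw [hgf, neg_neg], polar_neg_left, OQ_polar, (hTo t ht).2, neg_zero]
        · show polar Q f (g.1 t) = 0
          rw [hf, OQ_polar]; exact (hTo t ht).1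
      | zero => simp
      | add x y _ _ hx hy => rw [map_add, LinearMap.add_apply, hx, hy, add_zero]
      | smul a x _ hx => rw [map_smul, LinearMap.smul_apply, hx, smul_zero]
    have hagree : ∀ v ∈ P, g.1 v = h.1 v := fun v hv => by
      induction hv using Submodule.span_induction with
      | mem x hx =>
        obtain ⟨i, rfl⟩ := hx
        fin_cases i
        · exact he'.symm
        · exact hgf.trans hf'.symm
      | zero => simp
      | add x y _ _ hx hy => rw [map_add, map_add, hx, hy]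
      | smul a x _ hx => rw [map_smul, map_smul, hx]
    -- the rest
    set k : OQ Q := h⁻¹ * g with hkd
    have hk : ∀ v, h.1 (k.1 v) = g.1 v := fun v => by
      rw [← LinearEquiv.mul_apply, ← Subgroup.coe_mul, hkd, mul_inv_cancel_left]
    have hkT : ∀ t ∈ T, k.1 t = g.1 t := fun t ht => h.1.injective (by
      rw [hk, hho _ (hTo _ (hgT t ht)).1 (hTo _ (hgT t ht)).2])
    have hkfix : ∀ v, (∀ t ∈ T, polar Q t v = 0) → k.1 v = v := by
      intro v hv
      refine h.1.injective ?_
      rw [hk]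
      obtain ⟨hs, -, -⟩ := Orth.nonDegOn_split OrthSubspace.isSymm le_top hS
        (fun u _ hu => hB u fun x => hu x trivial)
      obtain ⟨s, hsS, u, hu, rfl⟩ := Submodule.mem_sup.1
        (by rw [hs]; exact Submodule.mem_top : v ∈ S ⊔ (⊤ ⊓ LinearMap.BilinForm.orthogonal Q.polarBilin S))
      have huo : ∀ x ∈ S, polar Q x u = 0 := fun x hx => hu.2 x hx
      obtain ⟨p, hp, t, ht, rfl⟩ := Submodule.mem_sup.1 (hsup.symm ▸ hsS : s ∈ P ⊔ T)
      have ht0 : t = 0 := hTN t ht fun t' ht' => by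
        have h1 := hv t' ht'
        rw [polar_add_right, polar_add_right, huo t' ht'.1, add_zero, polar_comm Q t' p,
          show polar Q p t' = 0 from ht'.2 p hp, zero_add] at h1
        exact (polar_comm Q t t').trans h1
      subst ht0
      rw [add_zero, map_add, map_add, hagree p hp, hfix u huo, hho u (huo e heS) (huo f hfS)]
    have hrec := ih T k hTd hTN (fun t ht => ⟨by rw [hkT t ht]; exact hgT t ht, by
      rw [hkT t ht, hkT _ (hgT t ht)]; exact (hJ t ht.1).2⟩) hkfix
    have hsh : OrthGen.sgnHom hB hRQ h = ((1 : ℤˣ), (-1 : ℤˣ)) := by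
      rw [map_mul, OrthGen.sgnHom_refl h2 hB hRQ, OrthGen.sgnHom_refl h2 hB hRQ, hQd, hQf]
      have hiff : IsSquare (2 * Q e) ↔ ¬ IsSquare (Q e) := by
        refine ⟨fun a b => h2s ?_, fun a => OrthGen.isSquare_mul_iff_same h2 he (iff_of_false h2s a)⟩
        exact Forms25.isSquare_of_isSquare_mul he b (by rwa [mul_comm])
      by_cases hs : IsSquare (Q e)
      · rw [if_pos hs, if_neg fun a => hiff.1 a hs]; decide
      · rw [if_neg hs, if_pos (hiff.2 hs)]; decide
    rw [show g = h * k by rw [hkd, mul_inv_cancel_left], map_mul, hsh, hrec, pow_succ']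

end complex

section unipotent

variable {V : Type*} [AddCommGroup V] [Module F V] [FiniteDimensional F V] {R : QuadraticForm F V}
  {f : Module.End F V}

omit [Fintype F] in
/-- For a quadratic unipotent isometry whose fixed vectors are isotropic the form is hyperbolic. -/
theorem half_of_quadratic
    {U : Submodule F V} (hU : ∀ v ∈ U, f v ∈ U) (hN : NonDegOn R.polarBilin U)
    (hquad : ∀ v ∈ U, f (f v - v) = f v - v) (hiso : ∀ v ∈ U, f v = v → R v = 0) :
    finrank F U = 2 * finrank F ↥(U ⊓ LinearMap.ker (f - 1)) := by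
  set K := U ⊓ LinearMap.ker (f - 1)
  have hmK : ∀ {v}, v ∈ K ↔ v ∈ U ∧ f v = v := fun {v} => by
    rw [Submodule.mem_inf, LinearMap.mem_ker, LinearMap.sub_apply, Module.End.one_apply, sub_eq_zero]
  have hK : IsoOn R.polarBilin K := fun x hx y hy => by
    have hz : ∀ z ∈ K, R z = 0 := fun z hz => hiso z (hmK.1 hz).1 (hmK.1 hz).2
    rw [polarBilin_apply_apply, polar, hz _ (add_mem hx hy), hz x hx, hz y hy, sub_zero, sub_zero]
  have h1 : 2 * finrank F K ≤ finrank F U := two_mul_finrank_le inf_le_left hN hK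
  let φ : U →ₗ[F] V := (f - 1).comp U.subtype
  have hker : finrank F (LinearMap.ker φ) = finrank F K := by
    rw [← LinearEquiv.finrank_eq (Submodule.equivMapOfInjective U.subtype U.injective_subtype _).symm]
    have : (LinearMap.ker φ).map U.subtype = K := by
      ext v
      constructor
      · rintro ⟨u, hu, rfl⟩
        exact ⟨u.2, hu⟩
      · exact fun hv => ⟨⟨v, hv.1⟩, hv.2, rfl⟩
    rw [this]
  have hrange : LinearMap.range φ ≤ K := by
    rintro _ ⟨u, rfl⟩
    exact hmK.2 ⟨sub_mem (hU u u.2) u.2, hquad u u.2⟩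
  have h3 := LinearMap.finrank_range_add_finrank_ker φ
  have h4 := Submodule.finrank_mono hrange
  change finrank F U = 2 * finrank F K
  omega

variable {p : ℕ} {κ : Type} [Fintype κ] [DecidableEq κ]

/-- Subspaces of dimension `1 mod 4` fixed by a unipotent isometry with blocks `3, 1, 2, ..., 2` are
isometric. -/
theorem isometric_of_fixed (h2 : (2 : F) ≠ 0) {R : QuadraticForm F (κ → F)} {f : Module.End F (κ → F)}
    (hR : BNondeg R)
    (hB : ∀ u v, polar R (f u) (f v) = polar R u v) (hNp : (f - 1) ^ p = 0) {b : ℕ}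
    (hL : ∀ k, layerDim (f - 1) ⊤ k = ((3 : ℕ) ::ₘ 1 ::ₘ Multiset.replicate (2 * b) 2).countP fun e => k < e)
    {U₁ U₂ : Submodule F (κ → F)} (hU₁ : ∀ v ∈ U₁, f v ∈ U₁) (hN₁ : NonDegOn R.polarBilin U₁)
    (hU₂ : ∀ v ∈ U₂, f v ∈ U₂) (hN₂ : NonDegOn R.polarBilin U₂) (hd : finrank F U₁ = finrank F U₂)
    (h4 : finrank F U₁ % 4 = 1) :
    ∃ T : U₁ ≃ₗ[F] U₂, ∀ w : U₁, R (T w : κ → F) = R (w : κ → F) := by
  classical
  set μ := (3 : ℕ) ::ₘ 1 ::ₘ Multiset.replicate (2 * b) 2 with hμ
  set N : Module.End F (κ → F) := f - 1 with hN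
  have hNa : ∀ v, N v = f v - v := fun v => rfl
  have hpol : ∀ v w, polar R (N v) w = polar R (f v) w - polar R v w := fun v w => by
    rw [hNa, polar_sub_left]
  -- the fixed vectors
  set Ker := LinearMap.ker N
  have hmKer : ∀ {v}, v ∈ Ker ↔ f v = v := fun {v} => by rw [LinearMap.mem_ker, hNa, sub_eq_zero]
  set Z := layerSpace N ⊤ 1
  have hZ : ∀ z ∈ Z, z ∈ Ker ∧ R z = 0 ∧ ∀ k ∈ Ker, polar R z k = 0 := by
    rintro _ ⟨v, ⟨-, hv⟩, rfl⟩
    rw [pow_one]
    have hk : ∀ k ∈ Ker, polar R (N v) k = 0 := fun k hk => by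
      rw [hpol]
      nth_rewrite 1 [← hmKer.1 hk]
      rw [hB, sub_self]
    have hker : N v ∈ Ker := by
      have h : (N ^ (1 + 1)) v = 0 := hv
      rw [pow_succ, pow_one] at h
      exact h
    refine ⟨hker, ?_, hk⟩
    have h := hk _ hker
    rw [OrthInvolField.polar_self_eq_two] at h
    exact (mul_eq_zero.1 h).resolve_left h2
  have hKd : finrank F Ker = finrank F Z + 1 := by
    have h0 : layerDim N ⊤ 0 = finrank F Ker := by
      rw [layerDim, layerSpace, pow_zero, Module.End.one_eq_id, Submodule.map_id, zero_add, pow_one, top_inf_eq]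
    have h1 : layerDim N ⊤ 1 = finrank F Z := rfl
    rw [← h0, ← h1, hL, hL]
    simp [hμ]
    exact Multiset.countP_congr rfl fun x hx => by simp [Multiset.eq_of_mem_replicate hx]
  have hclass : ∀ w ∈ Ker, R w ≠ 0 → ∀ w' ∈ Ker,
      ∃ a : F, R w' = a * a * R w ∧ polar R w w' = 2 * a * R w := by
    intro w hw hw0 w' hw'
    have hwZ : w ∉ Z := fun h => hw0 (hZ w h).2.1
    have hsup : Z ⊔ Submodule.span F {w} = Ker := by
      refine Submodule.eq_of_le_of_finrank_le (sup_le (fun z hz => (hZ z hz).1)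
        (Submodule.span_le.2 (Set.singleton_subset_iff.2 hw))) ?_
      have hlt : Z < Z ⊔ Submodule.span F {w} :=
        lt_of_le_of_ne le_sup_left fun h => hwZ (h ▸ Submodule.mem_sup_right (Submodule.mem_span_singleton_self w))
      have := Submodule.finrank_lt_finrank_of_lt hlt
      omega
    obtain ⟨z, hz, y, hy, rfl⟩ := Submodule.mem_sup.1 (hsup.symm ▸ hw' : w' ∈ Z ⊔ Submodule.span F {w})
    obtain ⟨a, rfl⟩ := Submodule.mem_span_singleton.1 hy
    obtain ⟨-, hz0, hzk⟩ := hZ z hz
    refine ⟨a, ?_, ?_⟩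
    · rw [QuadraticMap.map_add R, hz0, QuadraticMap.map_smul, smul_eq_mul,
        polar_smul_right, hzk w hw, smul_zero]
      ring
    · rw [polar_add_right, polar_comm R w z, hzk w hw, polar_smul_right,
        OrthInvolField.polar_self_eq_two, smul_eq_mul]
      ring
  -- the structure of a fixed subspace
  have hstruct : ∀ U : Submodule F (κ → F), (∀ v ∈ U, f v ∈ U) → NonDegOn R.polarBilin U → finrank F U % 4 = 1 →
      ∃ w U' : _, w ∈ U ∧ f w = w ∧ R w ≠ 0 ∧ U' ≤ U ∧ NonDegOn R.polarBilin U' ∧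
        finrank F U = finrank F U' + 1 ∧ (∀ u ∈ U', polar R w u = 0) ∧
        ∃ K ≤ U', (∀ v ∈ K, R v = 0) ∧ finrank F U' = 2 * finrank F K := by
    intro U hU hUN h4
    -- the blocks on `U` have size at most two
    have hS : LinearMap.BilinForm.IsSymm (polarBilin R) := OrthSubspace.isSymm
    have hBN : (polarBilin R).Nondegenerate :=
      LinearMap.BilinForm.Nondegenerate.ofSeparatingLeft fun x hx => hR x hx
    obtain ⟨ν, hν, hνs, hνe, hνc⟩ := Elusive25.exists_subpartition_parity h2 hS hBN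
      (fun u v => hB u v) hNp hL (W := U) (by rintro _ ⟨v, hv, rfl⟩; exact hU v hv)
      (fun w hw hw0 => by
        by_contra hno
        push Not at hno
        exact hw0 (hUN w hw fun y hy => by rw [polarBilin_apply_apply, polar_comm]; exact hno y hy))
    have hsmall : ∀ e ∈ ν, e = 1 ∨ e = 2 ∨ e = 3 := fun e he => by
      have := Multiset.mem_of_le hν he
      simp [hμ, Multiset.mem_replicate] at this
      omega
    have h3 : ν.count 3 = 0 := by
      have h := Elusive25.sum_of_small hsmall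
      have c1 := Multiset.le_iff_count.1 hν 1
      have c3 := Multiset.le_iff_count.1 hν 3
      simp [hμ, Multiset.count_replicate] at c1 c3
      obtain ⟨t, ht⟩ := hνe 2 even_two
      omega
    have hUN' : ∀ v ∈ U, N v ∈ U := fun v hv => sub_mem (hU v hv) hv
    have hLeq : ∀ k, 2 ≤ k → layerDim N U k = layerDim N U (k + 1) := fun k hk => by
      have h1 : layerDim N U (k + 1) ≤ layerDim N U k := layerDim_succ_le hUN' k
      have h : ν.count (k + 1) = 0 := by
        rcases eq_or_lt_of_le hk with rfl | hk'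
        · exact h3
        · exact Multiset.count_eq_zero.2 fun h => by have := hsmall _ h; omega
      rw [hνc] at h
      change layerDim N U k - layerDim N U (k + 1) = 0 at h
      omega
    have hL0 : ∀ k, 2 ≤ k → layerDim N U k = 0 := fun k hk => by
      have hall : ∀ t, layerDim N U k = layerDim N U (k + t) := by
        intro t
        induction t with
        | zero => rfl
        | succ t ih => rw [ih, hLeq (k + t) (by omega), add_assoc]
      rw [hall p, layerDim, layerSpace, pow_eq_zero_of_le (by omega) hNp, Submodule.map_zero, finrank_bot]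
    have hsq : ∀ v ∈ U, (N ^ 2) v = 0 := fun v hv => by
      by_contra hne
      have hex : ∃ k, (N ^ k) v = 0 := ⟨p, by rw [hNp]; rfl⟩
      obtain ⟨K, hKeq⟩ : ∃ K, Nat.find hex = K := ⟨_, rfl⟩
      have hK0 : (N ^ K) v = 0 := hKeq ▸ Nat.find_spec hex
      have hK3 : 3 ≤ K := by
        by_contra hlt
        refine hne ?_
        rw [show 2 = (2 - K) + K by omega, pow_add, Module.End.mul_apply, hK0, map_zero]
      obtain ⟨k, rfl⟩ : ∃ k, K = k + 1 := ⟨K - 1, by omega⟩
      refine Nat.find_min hex (by omega : k < Nat.find hex) ?_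
      have hmem : (N ^ k) v ∈ layerSpace N U k := ⟨v, ⟨hv, hK0⟩, rfl⟩
      rwa [Submodule.finrank_eq_zero.1 (hL0 k (by omega)), Submodule.mem_bot] at hmem
    have hquad : ∀ v ∈ U, f (f v - v) = f v - v := fun v hv => by
      have := hsq v hv
      rw [pow_two, Module.End.mul_apply, hNa, hNa, sub_eq_zero] at this
      exact this
    obtain ⟨w, hwU, hwf, hw0⟩ : ∃ w ∈ U, f w = w ∧ R w ≠ 0 := by
      by_contra hno
      push Not at hno
      have := half_of_quadratic hU hUN hquad hno
      omega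
    have hww : ∀ i : Unit, polar R w w ≠ 0 := fun _ => by
      rw [OrthInvolField.polar_self_eq_two]; exact mul_ne_zero h2 hw0
    set L := Submodule.span F (Set.range fun _ : Unit => w)
    have hLd : finrank F L = 1 := by
      rw [finrank_span_eq_card (OrthInvolField.linearIndependent_of_orth
        (fun i j h => absurd (Subsingleton.elim i j) h) hww), Fintype.card_unit]
    obtain ⟨hsup, hdis, hN'⟩ := Orth.nonDegOn_split hS (Submodule.span_le.2 (Set.range_subset_iff.2 fun _ => hwU))
      (OrthInvolField.nonDegOn_span (fun i j h => absurd (Subsingleton.elim i j) h) hww) hUN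
    set U' := U ⊓ LinearMap.BilinForm.orthogonal R.polarBilin L
    have hwo : ∀ u ∈ U', polar R w u = 0 := fun u hu => hu.2 w (Submodule.subset_span ⟨(), rfl⟩)
    have hinv : ∀ v ∈ U', f v ∈ U' := fun v hv => ⟨hU v hv.1, fun x hx => by
      obtain ⟨a, rfl⟩ := Submodule.mem_span_singleton.1 (Submodule.span_mono (by rintro _ ⟨-, rfl⟩; exact Set.mem_singleton _) hx : x ∈ Submodule.span F {w})
      show polar R (a • w) (f v) = 0
      rw [polar_smul_left]
      nth_rewrite 1 [← hwf]
      rw [hB, hwo v hv, smul_zero]⟩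
    have hisoU' : ∀ v ∈ U', f v = v → R v = 0 := fun v hv hvf => by
      obtain ⟨a, ha, hp⟩ := hclass w (hmKer.2 hwf) hw0 v (hmKer.2 hvf)
      rw [hwo v hv] at hp
      rw [ha, ((mul_eq_zero.1 hp.symm).resolve_right hw0 |> mul_eq_zero.1).resolve_left h2, zero_mul, zero_mul]
    refine ⟨w, U', hwU, hwf, hw0, inf_le_left, hN', ?_, hwo, _, inf_le_left, fun v hv => ?_,
      half_of_quadratic hinv hN' (fun v hv => hquad v hv.1) hisoU'⟩
    · have h : finrank F U = finrank F L + finrank F U' := finrank_eq_add_of_disjoint hsup hdis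
      omega
    · exact hisoU' v hv.1 (hmKer.1 hv.2)
  obtain ⟨w₁, U₁', hw₁, hf₁, hQ₁, hle₁, hN₁', hd₁, ho₁, K₁, hK₁, hK₁0, hK₁d⟩ := hstruct U₁ hU₁ hN₁ h4
  obtain ⟨w₂, U₂', hw₂, hf₂, hQ₂, hle₂, hN₂', hd₂, ho₂, K₂, hK₂, hK₂0, hK₂d⟩ := hstruct U₂ hU₂ hN₂ (hd ▸ h4)
  obtain ⟨a, ha, -⟩ := hclass w₁ (hmKer.2 hf₁) hQ₁ w₂ (hmKer.2 hf₂)
  obtain ⟨T', hT'⟩ := OrthTypes.exists_iso hN₁' hN₂' ⟨finrank F K₁, by omega⟩ (by omega)
    (iff_of_true (show Cfsg.Geo.IsPlusTypeOn ⇑R U₁' from ⟨K₁, hK₁, hK₁0, hK₁d.symm⟩)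
      (show Cfsg.Geo.IsPlusTypeOn ⇑R U₂' from ⟨K₂, hK₂, hK₂0, hK₂d.symm⟩))
  obtain ⟨z, hz, hzo, hz0⟩ := OrthSubspace.exists_orth_family h2 hN₁'
  let z' : Fin (finrank F U₁') → κ → F := fun i => T' ⟨z i, hz i⟩
  have hpT : ∀ i j, polar R (z' i) (z' j) = polar R (z i) (z j) := fun i j => by
    have h1 := hT' (⟨z i, hz i⟩ + ⟨z j, hz j⟩)
    rw [map_add, Submodule.coe_add, Submodule.coe_add] at h1
    simp only [z', polar, h1, hT']
  refine OrthSubspace.exists_iso_of_disc h2 hN₁ hN₂ (e := Sum.elim (fun _ : Unit => w₁) z)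
    (e' := Sum.elim (fun _ : Unit => w₂) z') ?_ ?_ ?_ ?_ ?_ ?_ (by simp; omega) (by simp; omega) hd ?_
  · rintro (i | i)
    exacts [hw₁, hle₁ (hz i)]
  · rintro (i | i)
    exacts [hw₂, hle₂ (T' ⟨z i, hz i⟩).2]
  · rintro (i | i) (j | j) h
    · exact absurd (congrArg Sum.inl (Subsingleton.elim i j)) h
    · exact ho₁ _ (hz j)
    · exact (polar_comm R _ _).trans (ho₁ _ (hz i))
    · exact hzo i j fun h' => h (congrArg Sum.inr h')
  · rintro (i | i) (j | j) h
    · exact absurd (congrArg Sum.inl (Subsingleton.elim i j)) h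
    · exact ho₂ _ (T' ⟨z j, hz j⟩).2
    · exact (polar_comm R _ _).trans (ho₂ _ (T' ⟨z i, hz i⟩).2)
    · exact (hpT i j).trans (hzo i j fun h' => h (congrArg Sum.inr h'))
  · rintro (i | i)
    · show polar R w₁ w₁ ≠ 0
      rw [OrthInvolField.polar_self_eq_two]; exact mul_ne_zero h2 hQ₁
    · exact hz0 i
  · rintro (i | i)
    · show polar R w₂ w₂ ≠ 0
      rw [OrthInvolField.polar_self_eq_two]; exact mul_ne_zero h2 hQ₂
    · show polar R (z' i) (z' i) ≠ 0
      rw [hpT]; exact hz0 i
  · rw [Fintype.prod_sum_type, Fintype.prod_sum_type]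
    simp only [Sum.elim_inl, Sum.elim_inr, hpT, Finset.univ_unique, Finset.prod_singleton,
      OrthInvolField.polar_self_eq_two, ha]
    exact ⟨2 * R w₁ * a * ∏ i, 2 * R (z i), by ring⟩

/-- An element of order `p` fixing no subspace of odd dimension of a given class. -/
theorem exists_unipotent_no_member [Fact p.Prime] [CharP F p] (h2 : (2 : F) ≠ 0) (hp3 : 3 ≤ p)
    {R : QuadraticForm F (κ → F)} (hR : BNondeg R) {d : ℕ} (hd0 : 2 ≤ d) (hde : Even d)
    (hκ : Fintype.card κ = 2 * d) {W₀ : Submodule F (κ → F)} (hW₀ : NonDegOn R.polarBilin W₀)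
    (hm : Odd (finrank F W₀)) (hmd : finrank F W₀ ≤ 2 * d) :
    ∃ g : OQ R, g ^ p = 1 ∧ ∀ W : Submodule F (κ → F), finrank F W = finrank F W₀ → NonDegOn R.polarBilin W →
      (∃ T : W ≃ₗ[F] W₀, ∀ w : W, R (T w : κ → F) = R (w : κ → F)) → ¬ ∀ v ∈ W, g.1 v ∈ W := by
  classical
  obtain ⟨t, rfl⟩ := hde
  obtain ⟨b, rfl⟩ : ∃ b, t = b + 1 := ⟨t - 1, by omega⟩
  set m := finrank F W₀ with hmdef
  set μ := (3 : ℕ) ::ₘ 1 ::ₘ Multiset.replicate (2 * b) 2 with hμ
  have hμmem : ∀ e ∈ μ, e = 1 ∨ e = 2 ∨ e = 3 := fun e he => by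
    simp [hμ, Multiset.mem_replicate] at he; omega
  obtain ⟨g, hgp, hgd⟩ := Elusive25.exists_unipotent (p := p) h2 μ
    (fun e he => by have := hμmem e he; omega)
    (fun e he => by
      by_cases h : e ∈ μ
      · rcases hμmem e h with rfl | rfl | rfl
        · exact absurd he (by decide)
        · simp [hμ]
        · exact absurd he (by decide)
      · rw [Multiset.count_eq_zero.2 h]; exact Even.zero)
    hR (by simp [hμ]; omega) (Or.inl ⟨3, by simp [hμ], by decide⟩)
  set f : Module.End F (κ → F) := (g.1 : (κ → F) ≃ₗ[F] κ → F).toLinearMap with hf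
  have hB : ∀ u v, polar R (f u) (f v) = polar R u v := fun u v => OQ_polar g u v
  have : Nonempty κ := Fintype.card_pos_iff.1 (by omega)
  have hNp : (f - 1) ^ p = 0 := by
    have : CharP (Module.End F (κ → F)) p :=
      charP_of_injective_algebraMap (RingHom.injective (algebraMap F (Module.End F (κ → F)))) p
    rw [sub_pow_char_of_commute p (Commute.one_right f), hf, ← OrthPlus.toLinearMap_pow, hgp, one_pow]
    exact sub_eq_zero.2 rfl
  -- two fixed subspaces are isometric
  have huniq : ∀ W W' : Submodule F (κ → F), finrank F W = m → finrank F W' = m →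
      NonDegOn R.polarBilin W → NonDegOn R.polarBilin W' → (∀ v ∈ W, g.1 v ∈ W) → (∀ v ∈ W', g.1 v ∈ W') →
      ∃ T : W ≃ₗ[F] W', ∀ w : W, R (T w : κ → F) = R (w : κ → F) := by
    intro W W' hd hd' hN hN' hW hW'
    have hmodd := Nat.odd_iff.1 hm
    rcases (show m % 4 = 1 ∨ m % 4 = 3 by omega) with h4 | h4
    · exact isometric_of_fixed h2 hR hB hNp hgd hW hN hW' hN' (hd.trans hd'.symm) (hd ▸ h4)
    · -- pass to the orthogonal complements
      have hc := OrthTypes.isCompl_orth hN
      have hc' := OrthTypes.isCompl_orth hN'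
      set P := LinearMap.BilinForm.orthogonal R.polarBilin W
      set P' := LinearMap.BilinForm.orthogonal R.polarBilin W'
      have hP : finrank F W + finrank F P = 4 * (b + 1) := by
        rw [Submodule.finrank_add_eq_of_isCompl hc, finrank_fintype_fun_eq_card, hκ]; ring
      have hP' : finrank F W' + finrank F P' = 4 * (b + 1) := by
        rw [Submodule.finrank_add_eq_of_isCompl hc', finrank_fintype_fun_eq_card, hκ]; ring
      have hinv : ∀ {X : Submodule F (κ → F)}, (∀ v ∈ X, g.1 v ∈ X) →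
          ∀ v ∈ LinearMap.BilinForm.orthogonal R.polarBilin X, f v ∈ LinearMap.BilinForm.orthogonal R.polarBilin X :=
        fun {X} hX => Elusive.orthogonal_invariant (B := R.polarBilin) hB
          (g.1 : (κ → F) ≃ₗ[F] κ → F).injective hX
      obtain ⟨T, hT⟩ := isometric_of_fixed h2 hR hB hNp hgd (hinv hW) (OrthTypes.nonDegOn_orth hR hN)
        (hinv hW') (OrthTypes.nonDegOn_orth hR hN') (show finrank F P = finrank F P' by omega)
        (show finrank F P % 4 = 1 by omega)
      obtain ⟨h, hh⟩ := OrthSubspace.exists_isometry_map h2 hR (OrthTypes.nonDegOn_orth hR hN)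
        (OrthTypes.nonDegOn_orth hR hN') T hT
      have hWW' : W.map h.1.toLinearMap = W' := by
        refine Submodule.eq_of_le_of_finrank_eq ?_ (by rw [LinearEquiv.finrank_map_eq, hd, hd'])
        have hbb : LinearMap.BilinForm.orthogonal R.polarBilin P' = W' :=
          LinearMap.BilinForm.orthogonal_orthogonal
            (LinearMap.BilinForm.Nondegenerate.ofSeparatingLeft fun x hx => hR x hx)
            (fun x y h => (polar_comm R y x).trans h) W'
        rw [← hbb]
        rintro _ ⟨w, hw, rfl⟩ y hy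
        change y ∈ LinearMap.BilinForm.orthogonal R.polarBilin W' at hy
        rw [← hh] at hy
        obtain ⟨y', hy', rfl⟩ := hy
        show polar R (h.1 y') (h.1 w) = 0
        rw [OQ_polar, polar_comm]
        exact hy' w hw
      refine ⟨(h.1.submoduleMap W).trans (LinearEquiv.ofEq _ _ hWW'), fun w => ?_⟩
      simp
  obtain ⟨ν, hν⟩ := Forms25.exists_not_isSquare (F := F) h2
  have hν0 : ν ≠ 0 := fun h => hν (h ▸ IsSquare.zero)
  obtain ⟨s, hs⟩ := Forms.exists_similarity R (nonsingOn_top_of_nondegenerate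
    (LinearMap.BilinForm.Nondegenerate.ofSeparatingLeft fun x hx => hR x hx))
    (by rw [finrank_fintype_fun_eq_card, hκ]; exact even_two_mul _) hν0
  by_cases hgood : ∀ W : Submodule F (κ → F), finrank F W = m → NonDegOn R.polarBilin W →
      (∃ T : W ≃ₗ[F] W₀, ∀ w : W, R (T w : κ → F) = R (w : κ → F)) → ¬ ∀ v ∈ W, g.1 v ∈ W
  · exact ⟨g, hgp, hgood⟩
  push Not at hgood
  obtain ⟨W, hWd, hWN, ⟨T, hT⟩, hWg⟩ := hgood
  have hsymm : ∀ v, R (s.symm v) = ν⁻¹ * R v := fun v => by
    have := hs (s.symm v)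
    rw [LinearEquiv.apply_symm_apply] at this
    rw [this, inv_mul_cancel_left₀ hν0]
  let g' : OQ R := ⟨s.symm.trans ((g.1 : (κ → F) ≃ₗ[F] κ → F).trans s), fun v => by
    show R (s (g.1 (s.symm v))) = R v
    rw [hs, OQ_map_app, hsymm, mul_inv_cancel_left₀ hν0]⟩
  have hpow : ∀ k : ℕ, ∀ v, (g' ^ k).1 v = s ((g ^ k).1 (s.symm v)) := by
    intro k
    induction k with
    | zero => intro v; simp
    | succ k ih =>
      intro v
      rw [pow_succ', pow_succ', Subgroup.coe_mul, LinearEquiv.mul_apply, ih, Subgroup.coe_mul,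
        LinearEquiv.mul_apply]
      show s (g.1 (s.symm (s _))) = _
      rw [LinearEquiv.symm_apply_apply]
  refine ⟨g', Subtype.ext (LinearEquiv.ext fun v => by rw [hpow, hgp]; simp), ?_⟩
  rintro W' hW'd hW'N ⟨T', hT'⟩ hW'g
  set U := W'.map (s.symm : (κ → F) ≃ₗ[F] κ → F).toLinearMap
  have hUd : finrank F U = m := (LinearEquiv.finrank_map_eq _ _).trans hW'd
  have hUN : NonDegOn R.polarBilin U := by
    rintro _ ⟨w, hw, rfl⟩ h0
    have : w = 0 := hW'N w hw fun y hy => by
      have h1 : polar R (s.symm w) (s.symm y) = 0 := h0 _ ⟨y, hy, rfl⟩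
      simp only [polar, ← map_add, hsymm, ← mul_sub, mul_eq_zero, inv_eq_zero, hν0, false_or] at h1
      exact h1
    rw [this, map_zero]
  obtain ⟨S, hS⟩ := huniq W U hWd hUd hWN hUN hWg (by
    rintro _ ⟨w, hw, rfl⟩
    refine ⟨g'.1 w, hW'g w hw, ?_⟩
    show s.symm (s (g.1 (s.symm w))) = g.1 (s.symm w)
    rw [LinearEquiv.symm_apply_apply])
  -- the form on `W'` would be similar to itself with multiplier `ν`
  let E : W' ≃ₗ[F] W' :=
    ((s.symm.submoduleMap W').trans S.symm).trans (T.trans T'.symm)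
  have hE : ∀ w : W', R (E w : κ → F) = ν⁻¹ * R (w : κ → F) := fun w => by
    show R ((T'.symm (T (S.symm (s.symm.submoduleMap W' w))) : W') : κ → F) = _
    rw [← hT' (T'.symm _), LinearEquiv.apply_symm_apply, hT, ← hS (S.symm _), LinearEquiv.apply_symm_apply]
    exact hsymm w
  obtain ⟨z, hz, hzo, hz0⟩ := OrthSubspace.exists_orth_family h2 hW'N
  let z' : Fin (finrank F W') → κ → F := fun i => E ⟨z i, hz i⟩
  have hpE : ∀ i j, polar R (z' i) (z' j) = ν⁻¹ * polar R (z i) (z j) := fun i j => by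
    have h1 := hE (⟨z i, hz i⟩ + ⟨z j, hz j⟩)
    rw [map_add, Submodule.coe_add, Submodule.coe_add] at h1
    simp only [z', polar, h1, hE]
    ring
  have hsq := OrthSubspace.isSquare_prod_family (R := R) (e' := z') hz (fun i => (E ⟨z i, hz i⟩).2) hzo
    (fun i j h => by rw [hpE, hzo i j h, mul_zero]) hz0
    (fun i => by rw [hpE]; exact mul_ne_zero (inv_ne_zero hν0) (hz0 i))
    (Fintype.card_fin _) (Fintype.card_fin _)
  simp only [hpE, Finset.prod_mul_distrib, Finset.prod_const, Finset.card_univ, Fintype.card_fin, hW'd] at hsq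
  obtain ⟨e, he⟩ := hm
  have hP : ∏ i, polar R (z i) (z i) ≠ 0 := Finset.prod_ne_zero_iff.2 fun i _ => hz0 i
  have hinv : IsSquare ν⁻¹ := by
    refine Forms25.isSquare_of_isSquare_mul
      (a := ((ν⁻¹) ^ e * ∏ i, polar R (z i) (z i)) * ((ν⁻¹) ^ e * ∏ i, polar R (z i) (z i)))
      (mul_self_ne_zero.2 (mul_ne_zero (pow_ne_zero _ (inv_ne_zero hν0)) hP)) ⟨_, rfl⟩ ?_
    convert hsq using 1
    rw [he]
    ring
  exact hν (inv_inv ν ▸ hinv.inv)

end unipotent

end Cfsg.Agent.Elusive10
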